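import Cfsg.Agent.H63.AnDefs2
import Cfsg.Agent.H52.PComponent

/-!
A simple subgroup of an involution centraliser that is normal modulo the core is normal, when
the group has the `B`-property and trivial core.
-/

set_option autoImplicit false

namespace Cfsg.Agent.H13.AnBc

open Cfsg Cfsg.Agent.H63 Cfsg.Agent.H63.AN Cfsg.Agent.H52 Subgroup
open scoped commutatorElement

universe u

/-- A quasisimple subgroup of even order that is normal modulo the core lies in the `2`-layer. -/
theorem le_layer_of {C : Type*} [Group C] [Finite C] {A : Subgroup C} (hA : IsQuasisimple A)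
    (he : 2 ∣ Nat.card A) (hn : ∀ c : C, ∃ y ∈ oddCore C, y * c ∈ normalizer (A : Set C)) :
    A ≤ pLayer 2 C := by
  have : Fact (Nat.Prime 2) := ⟨Nat.prime_two⟩
  refine le_pLayer_of_map_le (H52.IsQuasisimple.pElementClosure_eq hA he) ?_
  have hne : A.map (QuotientGroup.mk' (pPrimeCore 2 C)) ≠ ⊥ := by
    intro h
    rw [Subgroup.map_eq_bot_iff, QuotientGroup.ker_mk'] at h
    exact H52.IsPQS.not_le_of_coprime (H52.IsQuasisimple.isPQS hA he) coprime_card_pPrimeCore h
  have hN : (A.map (QuotientGroup.mk' (pPrimeCore 2 C))).Normal := by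
    refine ⟨?_⟩
    rintro _ ⟨a, ha, rfl⟩ g
    obtain ⟨c, rfl⟩ := QuotientGroup.mk'_surjective _ g
    obtain ⟨y, hy, h⟩ := hn c
    refine ⟨y * c * a * (y * c)⁻¹, (mem_normalizer_iff.1 h a).1 ha, ?_⟩
    have e : QuotientGroup.mk' (pPrimeCore 2 C) y = 1 := (QuotientGroup.eq_one_iff y).2 hy
    simp only [map_mul, map_inv, e, one_mul]
  exact le_sSup (show IsComponent _ from ⟨hN.isSubnormal, H52.IsQuasisimple.map hA _ hne⟩)

theorem bc : BcStmt.{u} := by
  intro G _ _ hO hB t A ht hAC hs hna he hn c hc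
  have hq : IsQuasisimple A := isQuasisimple_of_isSimpleGroup hna
  have h1 : A.subgroupOf C1[t] ≤ pLayer 2 C1[t] := by
    refine le_layer_of ((isQuasisimple_subgroupOf_iff hAC).2 hq) ?_ fun d => ?_
    · rw [Nat.card_congr (subgroupOfEquivOfLe hAC).toEquiv]
      exact even_iff_two_dvd.1 he
    · obtain ⟨_, ⟨y, hy, rfl⟩, h⟩ := hn d.1 d.2
      refine ⟨y, hy, mem_normalizer_iff.2 fun a => ?_⟩
      exact mem_normalizer_iff.1 h a.1
  obtain ⟨_, ⟨y, hy, rfl⟩, h⟩ := hn c hc
  have h2 : ∀ a ∈ A, a * y.1 = y.1 * a := by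
    intro a ha
    have h3 := hB t ht ⟨_, commutator_mem_commutator (h1 (show (⟨a, hAC ha⟩ : C1[t]) ∈ _ from ha))
      hy, rfl⟩
    rw [hO, mem_bot] at h3
    exact commutatorElement_eq_one_iff_mul_comm.1 h3
  have h4 : y.1 ∈ N[A] := centralizer_le_normalizer _ (mem_centralizer_iff.2 h2)
  exact (mul_mem_cancel_left h4).1 h

end Cfsg.Agent.H13.AnBc
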