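import Mathlib
import Cfsg.Agent.H13.Brauer

/-!
# Dade's detection theorem for invariant characters (Isaacs 8.24)
-/

set_option autoImplicit false

namespace Cfsg.Agent.H13

open Cfsg Cfsg.Agent.H11
open scoped ComplexConjugate

/-- If all point stabilizers have `p`-power index and the sum of an invariant function is prime to
`p`, then the function is prime to `p` at some fixed point. -/
theorem exists_fixed_not_dvd {Q X : Type*} [Group Q] [MulAction Q X] [Fintype X] {p : ℕ}
    (hst : ∀ x : X, ∃ k, (MulAction.stabilizer Q x).index = p ^ k) (f : X → ℕ)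
    (hf : ∀ (g : Q) (x : X), f (g • x) = f x) (h : ¬ p ∣ ∑ x, f x) :
    ∃ x, (∀ g : Q, g • x = x) ∧ ¬ p ∣ f x := by
  classical
  by_contra hc
  push Not at hc
  apply h
  have := Fintype.ofFinite (Quotient (MulAction.orbitRel Q X))
  rw [← Finset.sum_fiberwise (s := Finset.univ)
    (g := fun x => (Quotient.mk'' x : Quotient (MulAction.orbitRel Q X)))]
  refine Finset.dvd_sum fun ω _ => ?_
  obtain ⟨x, rfl⟩ := Quotient.exists_rep ω
  have hmem : ∀ y, (Quotient.mk'' y : Quotient (MulAction.orbitRel Q X)) = Quotient.mk _ x ↔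
      y ∈ MulAction.orbit Q x := fun y => Quotient.eq''.trans MulAction.orbitRel_apply
  rw [Finset.sum_congr rfl (g := fun _ => f x), Finset.sum_const, smul_eq_mul]
  · obtain ⟨k, hk⟩ := hst x
    have hcard : (Finset.univ.filter fun y => (Quotient.mk'' y :
        Quotient (MulAction.orbitRel Q X)) = Quotient.mk _ x).card = p ^ k := by
      rw [← hk, MulAction.index_stabilizer, Set.ncard_eq_toFinset_card']
      congr 1
      ext y
      simp only [Finset.mem_filter, Finset.mem_univ, true_and, hmem, Set.mem_toFinset]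
    rw [hcard]
    rcases k with _ | k
    · rw [pow_zero, Subgroup.index_eq_one] at hk
      refine Dvd.dvd.mul_left (hc x fun g => ?_) _
      exact MulAction.mem_stabilizer_iff.1 (hk ▸ Subgroup.mem_top g)
    · exact Dvd.dvd.mul_right (dvd_pow_self p k.succ_ne_zero) _
  · intro y hy
    obtain ⟨g, rfl⟩ := (hmem y).1 (Finset.mem_filter.1 hy).2
    exact hf g x

variable {G : Type*} [Group G]

theorem index_mul_card_inf (N E : Subgroup G) [N.Normal] :
    N.index * Nat.card ↥(E ⊓ N) = (E ⊔ N).index * Nat.card E := by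
  have h1 := Subgroup.relIndex_mul_index (le_sup_right : N ≤ E ⊔ N)
  rw [Subgroup.relIndex_sup_right] at h1
  have h2 := (N.subgroupOf E).card_mul_index
  have h3 : Nat.card (N.subgroupOf E) = Nat.card ↥(E ⊓ N) := by
    rw [← Subgroup.inf_subgroupOf_left]
    exact Nat.card_congr (Subgroup.subgroupOfEquivOfLe inf_le_left).toEquiv
  rw [← h1, ← h2, h3, Subgroup.relIndex]
  ring

/-- Inner product of an invariant function on a normal subgroup with the restriction of an induced
function. -/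
theorem classInner_invariant_res_indFun [Fintype G] (N : Subgroup G) [hN : N.Normal] [Fintype N]
    (E : Subgroup G) [Fintype ↥(E ⊓ N)] (η : N → ℂ)
    (hinv : ∀ (g : G) (n : N), η ⟨g * n * g⁻¹, hN.conj_mem (n : G) n.2 g⟩ = η n) (ψ : E → ℂ) :
    classInner η (fun n : N => indFun E ψ n) = ((E ⊔ N).index : ℂ) *
      classInner (fun x : ↥(E ⊓ N) => η ⟨x, x.2.2⟩) (fun x : ↥(E ⊓ N) => ψ ⟨x, x.2.1⟩) := by
  classical
  have := Fintype.ofFinite E
  rw [← H14.classInner_indFun_left N η (H14.indFun_isClassFunction E ψ),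
    H14.classInner_indFun_right E ψ (H14.indFun_isClassFunction N η), classInner_def,
    classInner_def]
  have h1 : ∑ e : E, indFun N η e * conj (ψ e) =
      ∑ x : ↥(E ⊓ N), (N.index : ℂ) * (η ⟨x, x.2.2⟩ * conj (ψ ⟨x, x.2.1⟩)) := by
    symm
    refine Finset.sum_of_injOn (fun x : ↥(E ⊓ N) => (⟨x, x.2.1⟩ : E))
      (fun a _ b _ hab => Subtype.ext (congrArg (Subtype.val : E → G) hab))
      (fun _ _ => Finset.mem_univ _) (fun e _ he => ?_) (fun x _ => ?_)
    · rw [H14.indFun_normal_of_not_mem N η, zero_mul]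
      intro heN
      exact he ⟨⟨e, e.2, heN⟩, Finset.mem_coe.2 (Finset.mem_univ _), rfl⟩
    · rw [← mul_assoc, ← H14.indFun_normal_apply_of_invariant N η hinv ⟨x, x.2.2⟩]
  rw [h1, ← Finset.mul_sum, ← mul_assoc, ← mul_assoc]
  congr 1
  have h2 : (N.index : ℂ) * Nat.card ↥(E ⊓ N) = (E ⊔ N).index * Nat.card E := by
    exact_mod_cast index_mul_card_inf N E
  have := H11.card_ne_zero E
  have := H11.card_ne_zero ↥(E ⊓ N)
  field_simp
  rw [h2, mul_comm]

/-- The action on irreducible characters induced by an action by automorphisms. -/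
@[reducible] def irrAction {Q D : Type*} [Group Q] [Group D] (c : Q →* MulAut D) :
    MulAction Q (IrrCharacter D) where
  smul g φ := ⟨fun x => φ.1 (c g⁻¹ x), isIrrCharacter_comp_mulEquiv φ.2 (c g⁻¹)⟩
  one_smul φ := by
    apply Subtype.ext; funext x
    show φ.1 (c 1⁻¹ x) = φ.1 x
    simp
  mul_smul g h φ := by
    apply Subtype.ext; funext x
    show φ.1 (c (g * h)⁻¹ x) = φ.1 (c h⁻¹ (c g⁻¹ x))
    simp

/-- If a group acts on `D` by automorphisms, a subgroup of `p`-power index acting by inner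
automorphisms, and `α`, `β` are invariant characters with inner product prime to `p`, then `α` has
an invariant irreducible constituent with multiplicity prime to `p`. -/
theorem exists_invariant_constituent {Q D : Type*} [Group Q] [Group D] [Fintype D] {p : ℕ}
    (hp : p.Prime) (c : Q →* MulAut D) (Q₀ : Subgroup Q) (hQ₀ : ∃ k, Q₀.index = p ^ k)
    (hinn : ∀ g ∈ Q₀, ∀ x, IsConj x (c g x)) {α β : D → ℂ} (hα : IsCharacter D α)
    (hβ : IsCharacter D β) (hαc : ∀ g x, α (c g x) = α x) (hβc : ∀ g x, β (c g x) = β x)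
    {n : ℕ} (hn : classInner α β = n) (hpn : ¬ p ∣ n) :
    ∃ φ : D → ℂ, IsIrrCharacter D φ ∧ (∀ g x, φ (c g x) = φ x) ∧
      ∃ m : ℕ, ¬ p ∣ m ∧ classInner α φ = m := by
  let _ := irrAction c
  have hsmul : ∀ (g : Q) (φ : IrrCharacter D) (x : D), (g • φ).1 x = φ.1 (c g⁻¹ x) :=
    fun _ _ _ => rfl
  obtain ⟨a, ha, -⟩ := exists_eq_sum_nat hα
  obtain ⟨b, hb, -⟩ := exists_eq_sum_nat hβ
  have hinvar : ∀ {γ : D → ℂ}, (∀ g x, γ (c g x) = γ x) → ∀ (g : Q) (φ : IrrCharacter D),
      classInner γ (g • φ).1 = classInner γ φ.1 := by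
    intro γ hγ g φ
    rw [← classInner_comp_mulEquiv (c g⁻¹) γ φ.1]
    simp only [hγ]
    rfl
  have hsum : n = ∑ φ, a φ * b φ := by
    have := classInner_eq_sum (H11.isClassFunction_of_isCharacter hα) β
    simp only [hn, ha, hb, map_natCast] at this
    exact_mod_cast this
  obtain ⟨φ, hφ, hnd⟩ := exists_fixed_not_dvd (Q := Q) (p := p) (fun φ => by
      obtain ⟨k, hk⟩ := hQ₀
      have hle : Q₀ ≤ MulAction.stabilizer Q φ := fun g hg => by
        apply Subtype.ext; funext x
        rw [hsmul]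
        exact (classFun_of_isConj (H11.isClassFunction_of_irr φ.2)
          (hinn g⁻¹ (Q₀.inv_mem hg) x)).symm
      obtain ⟨j, -, hj⟩ := (Nat.dvd_prime_pow hp).1 (hk ▸ Subgroup.index_dvd_of_le hle)
      exact ⟨j, hj⟩) (fun φ => a φ * b φ) (fun g φ => by
      have h1 : a (g • φ) = a φ := by
        have := hinvar hαc g φ
        rw [ha, ha] at this
        exact_mod_cast this
      have h2 : b (g • φ) = b φ := by
        have := hinvar hβc g φ
        rw [hb, hb] at this
        exact_mod_cast this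
      rw [h1, h2]) (hsum ▸ hpn)
  refine ⟨φ, φ.2, fun g x => ?_, a φ, fun h => hnd (h.mul_right _), ha φ⟩
  have := congrFun (congrArg Subtype.val (hφ g⁻¹)) x
  rwa [hsmul, inv_inv] at this

/-- Dade's theorem (Isaacs 8.24). -/
theorem dade_detection [Fintype G] {p : ℕ} (hp : p.Prime) (N : Subgroup G) [hN : N.Normal]
    (hind : ∃ k : ℕ, N.index = p ^ k) {ϑ : N → ℂ} (hϑ : IsIrrCharacter N ϑ)
    (hinv : ∀ (g : G) (n : N), ϑ ⟨g * n * g⁻¹, hN.conj_mem (n : G) n.2 g⟩ = ϑ n) :
    ∃ (E : Subgroup G) (φ : ↥(E ⊓ N) → ℂ), IsElementary p E ∧ E ⊔ N = ⊤ ∧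
      IsIrrCharacter ↥(E ⊓ N) φ ∧
      (∀ (g : G) (hg : g ∈ E) (x : ↥(E ⊓ N)), φ ⟨g * x * g⁻¹,
        ⟨(E.mul_mem (E.mul_mem hg x.2.1) (E.inv_mem hg)), hN.conj_mem (x : G) x.2.2 g⟩⟩ = φ x) ∧
      ∃ m : ℕ, ¬ p ∣ m ∧ ∀ [Fintype ↥(E ⊓ N)],
        classInner (fun x : ↥(E ⊓ N) => ϑ ⟨x, x.2.2⟩) φ = m := by
  have := Fintype.ofFinite N
  have hϑc := H11.isCharacter_of_irr hϑ
  let η : N → ℂ := ϑ * fun n => conj (ϑ n)
  have hη : IsCharacter N η := isCharacter_mul hϑc (isCharacter_conj hϑc)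
  obtain ⟨m, hm, hmem⟩ := brauer_local (G := G) hp
  let M : AddSubgroup (G → ℂ) :=
    { carrier := {f | ∃ z : ℤ, classInner η (fun n : N => f n) = (p * z : ℤ)}
      zero_mem' := ⟨0, by
        show classInner η 0 = _
        rw [classInner_zero_right]; simp⟩
      add_mem' := by
        rintro a b ⟨x, hx⟩ ⟨y, hy⟩
        refine ⟨x + y, ?_⟩
        have := classInner_add_right η (fun n : N => a n) (fun n : N => b n)
        rw [hx, hy] at this
        push_cast at this ⊢
        rw [mul_add]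
        exact this
      neg_mem' := by
        rintro a ⟨x, hx⟩
        refine ⟨-x, ?_⟩
        have := classInner_neg_right η (fun n : N => a n)
        rw [hx] at this
        push_cast at this ⊢
        rw [mul_neg]
        exact this }
  have hex : ∃ (E : Subgroup G) (ψ : E → ℂ), IsElementary p E ∧ IsIrrCharacter E ψ ∧
      indFun E ψ ∉ M := by
    by_contra hc
    push Not at hc
    obtain ⟨z, hz⟩ := indSpan_le M hc hmem
    have h1 : classInner η (fun _ : N => (m : ℂ)) = m := by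
      have h2 := classInner_zsmul_right m η (fun _ => 1)
      rw [← classInner_eq_mul_conj_one, classInner_irr_self hϑ, mul_one] at h2
      convert h2 using 2
      funext x; simp
    rw [h1] at hz
    exact hm ⟨z, by exact_mod_cast hz⟩
  obtain ⟨E, ψ, hE, hψ, hnM⟩ := hex
  have := Fintype.ofFinite ↥(E ⊓ N)
  have hkey := classInner_invariant_res_indFun N E η
    (fun g n => by simp only [η, Pi.mul_apply, hinv]) ψ
  let α : ↥(E ⊓ N) → ℂ := fun x => ϑ ⟨x, x.2.2⟩
  let β : ↥(E ⊓ N) → ℂ := (fun x : ↥(E ⊓ N) => ψ ⟨x, x.2.1⟩) * α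
  have hα : IsCharacter _ α := isCharacter_restrict_of_le hϑc inf_le_right
  have hβ : IsCharacter _ β :=
    isCharacter_mul (isCharacter_restrict_of_le (H11.isCharacter_of_irr hψ) inf_le_left) hα
  obtain ⟨n, hn⟩ := exists_nat_classInner hα hβ
  have hαβ : classInner (fun x : ↥(E ⊓ N) => η ⟨x, x.2.2⟩) (fun x : ↥(E ⊓ N) => ψ ⟨x, x.2.1⟩) =
      n := by
    rw [← hn]
    have := classInner_mul_left α (fun x => conj (α x)) (fun x : ↥(E ⊓ N) => ψ ⟨x, x.2.1⟩)
    simp only [Complex.conj_conj] at this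
    exact this
  rw [hαβ] at hkey
  have hnd : ¬ p ∣ (E ⊔ N).index * n := by
    rintro ⟨z, hz⟩
    apply hnM
    refine ⟨z, ?_⟩
    rw [hkey]
    exact_mod_cast hz
  have htop : E ⊔ N = ⊤ := by
    obtain ⟨k, hk⟩ := hind
    obtain ⟨j, -, hj⟩ := (Nat.dvd_prime_pow hp).1
      (hk ▸ Subgroup.index_dvd_of_le (le_sup_right : N ≤ E ⊔ N))
    rcases j with _ | j
    · rwa [pow_zero, Subgroup.index_eq_one] at hj
    · exact absurd (Dvd.dvd.mul_right (hj ▸ dvd_pow_self p j.succ_ne_zero) n) hnd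
  have hEN : E ≤ Subgroup.normalizer ((E ⊓ N : Subgroup G) : Set G) :=
    (le_inf E.le_normalizer (N.normalizer_eq_top ▸ le_top)).trans
      Subgroup.inf_normalizer_le_normalizer_inf
  let c : E →* MulAut ↥(E ⊓ N) := (E ⊓ N).normalizerMonoidHom.comp (Subgroup.inclusion hEN)
  have hc : ∀ (g : E) (x : ↥(E ⊓ N)), (c g x : G) = g * x * (g : G)⁻¹ := fun _ _ => rfl
  have hαc : ∀ g x, α (c g x) = α x := fun g x => hinv g ⟨x, x.2.2⟩
  obtain ⟨φ, hφ, hφc, k, hk, hkφ⟩ := exists_invariant_constituent hp c (N.subgroupOf E)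
    (by
      obtain ⟨k, hk⟩ := hind
      obtain ⟨j, -, hj⟩ := (Nat.dvd_prime_pow hp).1
        (hk ▸ Subgroup.relIndex_dvd_index_of_normal N E)
      exact ⟨j, hj⟩)
    (fun g hg x => isConj_iff.2 ⟨⟨g, g.2, hg⟩, Subtype.ext (hc g x).symm⟩) hα hβ hαc
    (fun g x => by
      simp only [β, Pi.mul_apply, hαc]
      congr 1
      exact H11.isClassFunction_of_irr hψ ⟨x, x.2.1⟩ g)
    hn (fun h => hnd (h.mul_left _))
  refine ⟨E, φ, hE, htop, hφ, fun g hg x => hφc ⟨g, hg⟩ x, k, hk, fun [inst : Fintype _] => ?_⟩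
  rw [← hkφ]
  exact classInner_fintype_irrel _ _ _ _

end Cfsg.Agent.H13
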