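import Mathlib
import Cfsg.Agent.H13.Dade
import Cfsg.Agent.H24.Deg

/-!
# Extension of invariant characters over `p`-quotients (Isaacs 8.26)
-/

set_option autoImplicit false

namespace Cfsg.Agent.H13

open Cfsg Cfsg.Agent.H11
open scoped ComplexConjugate commutatorElement

/-- A linear character of `D` killing the preimage of the commutator subgroup of `E` under
`f : D → E` factors through `f`. -/
theorem exists_linear_extend {D E : Type*} [Group D] [Group E] [Finite E] (f : D →* E)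
    (lam : D →* ℂˣ) (h : ∀ d, f d ∈ commutator E → lam d = 1) :
    ∃ μ : E →* ℂˣ, ∀ d, μ (f d) = lam d := by
  let F : D →* Abelianization E := Abelianization.of.comp f
  have hker : F.rangeRestrict.ker ≤ lam.ker := by
    intro d hd
    rw [MonoidHom.ker_rangeRestrict, MonoidHom.mem_ker] at hd
    exact h d ((QuotientGroup.eq_one_iff _).1 hd)
  let l : F.range →* ℂˣ :=
    F.rangeRestrict.liftOfSurjective F.rangeRestrict_surjective ⟨lam, hker⟩
  have : Finite (Abelianization E) := Finite.of_surjective _ (QuotientGroup.mk_surjective)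
  have : NeZero (Monoid.exponent (Abelianization E) : ℂ) :=
    ⟨Nat.cast_ne_zero.2 Monoid.exponent_ne_zero_of_finite⟩
  obtain ⟨ν, hν⟩ := MonoidHom.domRestrict_surjective (M := ℂ) F.range l
  refine ⟨ν.comp Abelianization.of, fun d => ?_⟩
  have h1 : l (F.rangeRestrict d) = lam d :=
    MonoidHom.liftOfRightInverse_comp_apply _ _ _ _ _
  rw [← h1, ← hν]
  rfl

variable {G : Type*} [Group G]

theorem mem_of_coprime_index (N : Subgroup G) [N.Normal] {x : G}
    (h : N.index.Coprime (orderOf x)) : x ∈ N := by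
  have h1 : x ∈ Subgroup.zpowers (x ^ N.index) := mem_zpowers_pow_iff.2 h
  exact (Subgroup.zpowers_le.2 (N.pow_index_mem x)) h1

/-- If `G/N` is a `p`-group and some character of `G` contains the invariant irreducible `ϑ` in
its restriction with multiplicity prime to `p`, then `ϑ` extends to `G`. -/
theorem extends_of_not_dvd_inner [Fintype G] {p : ℕ} (hp : p.Prime) (N : Subgroup G)
    [hN : N.Normal] [Fintype N] (hind : ∃ k : ℕ, N.index = p ^ k) {ϑ : N → ℂ}
    (hϑ : IsIrrCharacter N ϑ)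
    (hinv : ∀ (g : G) (n : N), ϑ ⟨g * n * g⁻¹, hN.conj_mem (n : G) n.2 g⟩ = ϑ n)
    {χ : G → ℂ} (hχ : IsCharacter G χ) {m : ℕ} (hm : ¬ p ∣ m)
    (h : classInner (fun n : N => χ n) ϑ = m) :
    ∃ ξ : G → ℂ, IsIrrCharacter G ξ ∧ ∀ n : N, ξ n = ϑ n := by
  classical
  have := Fact.mk hp
  obtain ⟨a, -, ha⟩ := exists_eq_sum_nat hχ
  choose e he using fun ξ : IrrCharacter G => exists_nat_classInner
    (isCharacter_restrict (H11.isCharacter_of_irr ξ.2) N) (H11.isCharacter_of_irr hϑ)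
  have hsum : m = ∑ ξ, a ξ * e ξ := by
    have h1 : (fun n : N => χ n) = ∑ ξ : IrrCharacter G, (a ξ : ℂ) • fun n : N => ξ.1 n := by
      funext n
      conv_lhs => rw [ha]
      simp
    rw [h1, classInner_sum_left] at h
    simp only [classInner_smul_left, he] at h
    exact_mod_cast h.symm
  obtain ⟨ξ, hξ⟩ : ∃ ξ, ¬ p ∣ e ξ := by
    by_contra hc
    push Not at hc
    exact hm (hsum ▸ Finset.dvd_sum fun ξ _ => (hc ξ).mul_left _)
  have hne : classInner (fun n : N => ξ.1 n) ϑ ≠ 0 := by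
    rw [he]
    rintro h0
    exact hξ ((Nat.cast_eq_zero.1 h0) ▸ dvd_zero p)
  have hcl := H14.clifford_invariant N ξ.2 hϑ hne hinv
  rw [he] at hcl
  obtain ⟨k, hk⟩ := hind
  have hP : IsPGroup p (G ⧸ N) := IsPGroup.of_card hk
  have := hP.isNilpotent
  obtain ⟨e', he', hd⟩ := H24.exists_deg_eq_mul N ξ.2 hϑ hne
  have h1 : ξ.1 1 = e ξ * ϑ 1 := congrFun hcl 1
  rw [H24.irr_deg ξ.2, H24.irr_deg hϑ, hd] at h1
  have h2 : e' = e ξ := by
    have h3 : e' * charDegree ϑ = e ξ * charDegree ϑ := by exact_mod_cast h1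
    exact Nat.eq_of_mul_eq_mul_right (H24.deg_pos hϑ) h3
  rw [h2, hk] at he'
  obtain ⟨j, -, hj⟩ := (Nat.dvd_prime_pow hp).1 he'
  rcases j with _ | j
  · refine ⟨ξ, ξ.2, fun n => ?_⟩
    have := congrFun hcl n
    simpa [hj] using this
  · exact absurd (hj ▸ dvd_pow_self p j.succ_ne_zero) hξ

/-- Isaacs 8.26. -/
theorem dade_extension [Fintype G] (p : ℕ) [hp : Fact p.Prime] (N : Subgroup G) [hN : N.Normal]
    (hind : ∃ k : ℕ, N.index = p ^ k) (P : Sylow p G)
    (hcent : ∀ x ∈ (P : Subgroup G) ⊓ N, ∀ y ∈ (P : Subgroup G) ⊓ N, x * y = y * x)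
    (hlin : ∀ lam : ↥((P : Subgroup G) ⊓ N) →* ℂˣ, ∃ μ : ↥(P : Subgroup G) →* ℂˣ,
      ∀ x : ↥((P : Subgroup G) ⊓ N), μ ⟨(x : G), x.2.1⟩ = lam x)
    {ϑ : N → ℂ} (hϑ : IsIrrCharacter N ϑ)
    (hinv : ∀ (g : G) (n : N), ϑ ⟨g * n * g⁻¹, hN.conj_mem (n : G) n.2 g⟩ = ϑ n) :
    ∃ χ : G → ℂ, IsIrrCharacter G χ ∧ ∀ n : N, χ n = ϑ n := by
  classical
  have := Fintype.ofFinite N
  obtain ⟨E, φ, hE, htop, hφ, -, m, hm, hφm⟩ := dade_detection hp.out N hind hϑ hinv
  have := Fintype.ofFinite ↥(E ⊓ N)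
  obtain ⟨x, Q, hx, hcop, hQ, hdec⟩ := exists_decomp_of_isElementary hp.out hE
  obtain ⟨P', hP'⟩ := (hQ.map E.subtype).exists_le_sylow
  obtain ⟨g, hg⟩ := MulAction.exists_smul_eq G P' P
  have hQP : ∀ q ∈ Q, g * (q : G) * g⁻¹ ∈ (P : Subgroup G) := by
    intro q hq
    rw [← hg]
    exact Subgroup.smul_mem_pointwise_smul _ (MulAut.conj g) _ (hP' ⟨q, hq, rfl⟩)
  have hxN : (x : G) ∈ N := by
    obtain ⟨k, hk⟩ := hind
    apply mem_of_coprime_index
    rw [hk, Subgroup.orderOf_coe]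
    exact Nat.Coprime.pow_left k hcop.symm
  have hcN : ∀ c ∈ Subgroup.zpowers x, (c : G) ∈ N := by
    rintro c ⟨k, rfl⟩
    exact N.zpow_mem hxN k
  have hcZ : ∀ c ∈ Subgroup.zpowers x, ∀ y : E, y * c = c * y := fun c hc y =>
    Subgroup.mem_center_iff.1 (Subgroup.zpowers_le.2 hx hc) y
  have hcomm : ∀ a b : ↥(E ⊓ N), a * b = b * a := by
    intro a b
    obtain ⟨c, hc, q, hq, ha⟩ := hdec ⟨a, a.2.1⟩
    obtain ⟨c', hc', q', hq', hb⟩ := hdec ⟨b, b.2.1⟩
    have hqN : (q : G) ∈ N := by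
      have h1 : (a : G) = c * q := congrArg Subtype.val ha
      exact (N.mul_mem_cancel_left (hcN c hc)).1 (h1 ▸ a.2.2)
    have hqN' : (q' : G) ∈ N := by
      have h1 : (b : G) = c' * q' := congrArg Subtype.val hb
      exact (N.mul_mem_cancel_left (hcN c' hc')).1 (h1 ▸ b.2.2)
    have h1 := hcent _ ⟨hQP q hq, hN.conj_mem _ hqN g⟩ _ ⟨hQP q' hq', hN.conj_mem _ hqN' g⟩
    have h2 : q * q' = q' * q := by
      apply Subtype.ext
      apply (MulAut.conj g).injective
      simpa using h1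
    have h3 : (⟨a, a.2.1⟩ : E) * ⟨b, b.2.1⟩ = ⟨b, b.2.1⟩ * ⟨a, a.2.1⟩ := by
      rw [ha, hb]
      calc c * q * (c' * q') = c * (q * c') * q' := by group
        _ = c * c' * (q * q') := by rw [hcZ c' hc' q]; group
        _ = c' * c * (q' * q) := by rw [h2, hcZ c' hc' c]
        _ = c' * (c * q') * q := by group
        _ = c' * q' * (c * q) := by rw [← hcZ c hc q']; group
    exact Subtype.ext (congrArg (Subtype.val : E → G) h3)
  obtain ⟨lam, rfl⟩ := exists_monoidHom_of_apply_one_eq_one (H11.isCharacter_of_irr hφ)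
    (irr_apply_one_of_comm hcomm hφ)
  let cj : ↥(E ⊓ N) →* G := (MulAut.conj g).toMonoidHom.comp (E ⊓ N).subtype
  let D : Subgroup ↥(E ⊓ N) := (P : Subgroup G).comap cj
  let f : D →* ↥((P : Subgroup G) ⊓ N) := (cj.comp D.subtype).codRestrict _
    fun d => ⟨d.2, hN.conj_mem _ d.1.2.2 g⟩
  obtain ⟨l₁, hl₁⟩ := exists_linear_extend f (lam.comp D.subtype) (fun d hd => by
    have h1 : commutator ↥((P : Subgroup G) ⊓ N) = ⊥ := by
      rw [commutator_eq_bot_iff_center_eq_top, Subgroup.eq_top_iff']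
      intro a
      rw [Subgroup.mem_center_iff]
      exact fun b => Subtype.ext (hcent _ b.2 _ a.2)
    rw [h1, Subgroup.mem_bot] at hd
    have h2 : g * ((d : ↥(E ⊓ N)) : G) * g⁻¹ = 1 := congrArg Subtype.val hd
    have h3 : d = 1 := Subtype.ext (Subtype.ext (by simpa using h2))
    rw [h3, map_one])
  obtain ⟨ν, hν⟩ := hlin l₁
  let K : Subgroup E := (ν.ker.map (P : Subgroup G).subtype).comap
    ((MulAut.conj g).toMonoidHom.comp E.subtype)
  have hK : commutator E ≤ K := by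
    rw [commutator_def, Subgroup.commutator_le]
    intro a _ b _
    obtain ⟨c, hc, q, hq, rfl⟩ := hdec a
    obtain ⟨c', hc', q', hq', rfl⟩ := hdec b
    have h1 : ⁅c * q, c' * q'⁆ = ⁅q, q'⁆ := by
      simp only [commutatorElement_def, mul_inv_rev]
      calc c * q * (c' * q') * (q⁻¹ * c⁻¹) * (q'⁻¹ * c'⁻¹)
          = c * (q * c' * q' * q⁻¹) * c⁻¹ * q'⁻¹ * c'⁻¹ := by group
        _ = (q * c' * q' * q⁻¹) * q'⁻¹ * c'⁻¹ := by rw [← hcZ c hc]; group
        _ = c' * (q * q' * q⁻¹ * q'⁻¹) * c'⁻¹ := by rw [hcZ c' hc' q]; group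
        _ = q * q' * q⁻¹ * q'⁻¹ := by rw [← hcZ c' hc']; group
    rw [h1]
    refine ⟨⁅(⟨_, hQP q hq⟩ : (P : Subgroup G)), ⟨_, hQP q' hq'⟩⁆, ?_, ?_⟩
    · exact Abelianization.commutator_subset_ker ν (Subgroup.commutator_mem_commutator
        (Subgroup.mem_top _) (Subgroup.mem_top _))
    · simp [commutatorElement_def, mul_assoc]
  obtain ⟨μ, hμ⟩ := exists_linear_extend (Subgroup.inclusion (inf_le_left : E ⊓ N ≤ E)) lam
    (fun d hd => by
      obtain ⟨y, hy, hyd⟩ := hK hd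
      have hdD : d ∈ D := by
        show cj d ∈ (P : Subgroup G)
        have : cj d = y := hyd.symm
        rw [this]
        exact y.2
      have h1 := hl₁ ⟨d, hdD⟩
      rw [← hν] at h1
      have h2 : (⟨(f ⟨d, hdD⟩ : G), (f ⟨d, hdD⟩).2.1⟩ : (P : Subgroup G)) = y :=
        Subtype.ext hyd.symm
      rw [h2] at h1
      exact h1.symm.trans hy)
  have hkey := classInner_invariant_res_indFun N E ϑ hinv (fun e => (μ e : ℂ))
  have h1 : (fun x : ↥(E ⊓ N) => (μ ⟨x, x.2.1⟩ : ℂ)) = fun x => (lam x : ℂ) :=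
    funext fun x => congrArg Units.val (hμ x)
  rw [h1, hφm, htop, Subgroup.index_top, Nat.cast_one, one_mul] at hkey
  refine extends_of_not_dvd_inner hp.out N hind hϑ hinv
    (H14.IsCharacter.indFun E (isCharacter_monoidHom μ)) hm ?_
  rw [← conj_classInner, hkey, map_natCast]

end Cfsg.Agent.H13
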