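import Cfsg.Agent.H17.LPDefs

/-! Project LP, piece APALL: the subgroups over the transvection groups. -/

set_option autoImplicit false

namespace Cfsg.Agent.H13.LpAp

open Cfsg Subgroup Matrix Cfsg.Agent.H17.LP

universe u

theorem ex_swap : ∀ J : Fin 5, (of fun h k => if Equiv.swap (4 : Fin 5) J h = k then (1 : F) else 0 : M5).det = 1 := by
  decide +kernel

theorem sw (J : Fin 5) : ∃ s : SL5, s⁻¹ = s ∧
    (∀ (a : M5) h k, (s.1 * a * s.1ᵀ) h k = a (Equiv.swap 4 J h) (Equiv.swap 4 J k)) ∧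
    ∀ (a : M5) h k, (s.1 * a * s.1) h k = a (Equiv.swap 4 J h) (Equiv.swap 4 J k) := by
  let s : SL5 := ⟨_, ex_swap J⟩
  have h1 : ∀ (a : M5) h k, (s.1 * a) h k = a (Equiv.swap 4 J h) k := by
    intro a h k
    simp [s, mul_apply]
  have h2 : ∀ (a : M5) h k, (a * s.1ᵀ) h k = a h (Equiv.swap 4 J k) := by
    intro a h k
    simp [s, mul_apply]
  have h3 : s.1ᵀ = s.1 := by
    ext h k
    simp only [s, transpose_apply, of_apply]
    clear h1 h2 s
    revert J h k
    decide +kernel
  refine ⟨s, ?_, fun a h k => by rw [h2, h1], fun a h k => ?_⟩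
  · apply inv_eq_of_mul_eq_one_right
    apply Subtype.ext
    ext h k
    rw [coe_mul', h1]
    simp [s, one_apply]
  · conv_lhs => rw [← h3]
    rw [h2, h3, h1]

theorem apAll : ApAllStmt.{u} := by
  intro N _ _ ι π he h5 j _
  obtain ⟨B, hB1, hB2, hB3, hB4⟩ := h5
  have e5 : ix 5 = 4 := rfl
  rw [e5] at hB2 hB3 hB4
  set J := ix j with hJ
  obtain ⟨s, hs, hs1, hs2⟩ := sw J
  obtain ⟨p, hp⟩ := he.surj s
  have hp' : π p⁻¹ = s := by rw [map_inv, hp, hs]
  have hm : ∀ x, x ∈ B.map (MulAut.conj p).toMonoidHom ↔ p⁻¹ * x * p ∈ B := by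
    intro x
    constructor
    · rintro ⟨b, hb, rfl⟩
      simpa [mul_assoc] using hb
    · intro h
      exact ⟨_, h, by simp [mul_assoc]⟩
  have hone : ∀ h k : Fin 5, (1 : M5) (Equiv.swap 4 J h) (Equiv.swap 4 J k) = (1 : M5) h k := by
    intro h k
    simp [one_apply]
  have hσ : Equiv.swap (4 : Fin 5) J 4 = J := Equiv.swap_apply_left _ _
  have hσσ : ∀ k, Equiv.swap (4 : Fin 5) J (Equiv.swap 4 J k) = k := fun k => Equiv.swap_apply_self _ _ _
  have hc : ∀ (x : N) h k, (π (p⁻¹ * x * p)).1 h k =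
      (π x).1 (Equiv.swap 4 J h) (Equiv.swap 4 J k) := by
    intro x h k
    rw [map_mul, map_mul, hp, hp', coe_mul', coe_mul', hs2]
  refine ⟨B.map (MulAut.conj p).toMonoidHom, ?_, ?_, ?_, ?_⟩
  · rintro b ⟨b0, hb0, rfl⟩
    rw [← map_mul, hB1 b0 hb0, map_one]
  · intro a ha
    have e := he.act p⁻¹ a ha
    rw [inv_inv] at e
    rw [hm, e, hB2 _ (ha.act _), hp']
    simp only [hs1, hσ]
    exact ⟨fun h k => by simpa [hσσ] using h (Equiv.swap 4 J k), fun h k => h _⟩
  · intro g
    obtain ⟨x, rfl⟩ := he.surj g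
    have h1 : (∃ b ∈ B.map (MulAut.conj p).toMonoidHom, π b = π x) ↔
        ∃ b ∈ B, π b = π (p⁻¹ * x * p) := by
      constructor
      · rintro ⟨b, hb, e⟩
        exact ⟨_, (hm b).1 hb, by simp only [map_mul, e]⟩
      · rintro ⟨b, hb, e⟩
        refine ⟨p * b * p⁻¹, (hm _).2 (by simpa [mul_assoc] using hb), ?_⟩
        simp only [map_mul, e, map_inv]
        group
    rw [h1, hB3]
    constructor
    · intro H h k hk
      have := H (Equiv.swap 4 J h) (Equiv.swap 4 J k) (by
        rcases hk with hk | hk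
        · left
          intro e
          apply hk
          rw [← hσσ k, e, hσ]
        · right
          rw [hk]; exact Equiv.swap_apply_right _ _)
      rwa [hc, hσσ, hσσ, hone] at this
    · intro H h k hk
      rw [hc, H, hone]
      rcases hk with hk | hk
      · left
        intro e
        apply hk
        rw [← hσσ k, e]; exact Equiv.swap_apply_right _ _
      · right
        rw [hk, hσ]
  · intro n hn
    have h1 : p⁻¹ * n * p ∈ normalizer (B : Set N) := by
      apply hB4
      intro k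
      rw [hc, hσ, hn, ← hone 4 k, hσ]
    rw [mem_normalizer_iff] at h1 ⊢
    intro x
    rw [hm, hm, h1]
    have : p⁻¹ * n * p * (p⁻¹ * x * p) * (p⁻¹ * n * p)⁻¹ = p⁻¹ * (n * x * n⁻¹) * p := by group
    rw [this]

theorem mulL {J : Fin 5} {T : M5} {w : Fin 5 → F}
    (hT : ∀ h k, T h k = (1 : M5) h k + if k = J then w h else 0) (a : M5) (h k : Fin 5) :
    (T * a) h k = a h k + w h * a J k := by
  simp [mul_apply, hT, add_mul, Finset.sum_add_distrib, one_apply]

theorem mulR {J : Fin 5} {T : M5} {w : Fin 5 → F}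
    (hT : ∀ h k, T h k = (1 : M5) h k + if k = J then w h else 0) (a : M5) (h k : Fin 5) :
    (a * Tᵀ) h k = a h k + a h J * w k := by
  simp [mul_apply, hT, mul_add, Finset.sum_add_distrib, one_apply]

theorem actT {J : Fin 5} {T : M5} {w : Fin 5 → F}
    (hT : ∀ h k, T h k = (1 : M5) h k + if k = J then w h else 0) {a : M5} (ha : Alt a)
    (h k : Fin 5) : (T * a * Tᵀ) h k = a h k + w h * a J k + a J h * w k := by
  rw [mulR hT, mulL hT, mulL hT, ha.2 J, mul_zero, add_zero, ha.symm h J]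

theorem invS : InvStmt.{u} := by
  intro N _ _ ι π he hall i _ j hj hij0
  have hIJ : ix i ≠ ix j := by
    rename_i hi
    revert hij0
    simp only [List.mem_cons, List.not_mem_nil, or_false] at hi hj
    rcases hi with rfl | rfl | rfl | rfl | rfl <;> rcases hj with rfl | rfl | rfl | rfl | rfl <;>
      decide
  obtain ⟨B, hB1, hB2, hB3, hB4⟩ := hall j hj
  have hX : ∀ h k, (X i j).1 h k = (1 : M5) h k + if k = ix j then (1 : M5) h (ix i) else 0 := by
    intro h k
    have e0 : X i j = ⟨1 + single (ix i) (ix j) 1, det_transvection_of_ne _ _ hIJ 1⟩ := dif_neg hIJ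
    rw [e0]
    change (1 : M5) h k + single (ix i) (ix j) (1 : F) h k = _
    congr 1
    by_cases e : k = ix j
    · subst e
      simp [single, one_apply, eq_comm]
    · rw [if_neg e]
      exact single_apply_of_ne _ _ _ _ _ fun h' => e h'.2.symm
  set I := ix i with hI
  set J := ix j with hJ
  have hJI : (1 : M5) J I = 0 := one_apply_ne hIJ.symm
  obtain ⟨b0, hb0, hπ0⟩ := (hB3 (X i j)).2 (by
    intro h k hk
    rw [hX]
    rcases hk with hk | hk
    · rw [if_neg hk, add_zero]
    · rw [hk, hJI]; simp)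
  have hι0 : ι 0 = 1 := by
    have := he.add 0 0 Alt.zero Alt.zero
    rw [add_zero] at this
    exact (mul_left_cancel (a := ι 0) (by rw [mul_one]; exact this)).symm
  have hιι : ∀ a, Alt a → ι a * ι a = 1 := fun a ha => by rw [← he.add a a ha ha, add_self_M, hι0]
  have hsq : ∀ a, Alt a → ∀ b ∈ B, ι a * b * (ι a * b) = ι (a + (π b).1 * a * (π b).1ᵀ) := by
    intro a ha b hb
    rw [he.add _ _ ha (ha.act _), ← he.act b a ha, inv_eq_of_mul_eq_one_right (hB1 b hb)]
    group
  refine ⟨⟨b0, hπ0, hB1 b0 hb0⟩, fun b n hb hbb hn => ?_⟩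
  obtain ⟨a, ha, hba⟩ := (he.ker (b * b0⁻¹)).1 (by rw [map_mul, map_inv, hb, hπ0, mul_inv_cancel])
  have hb' : b = ι a * b0 := by rw [← hba]; group
  have hfix : a + (X i j).1 * a * (X i j).1ᵀ = 0 := by
    apply he.inj _ (ha.add (ha.act _))
    rw [← hπ0, ← hsq a ha b0 hb0, ← hb', hbb]
  have hrow : ∀ k, a J k = a J I * (1 : M5) k I := by
    intro k
    by_cases e : k = I
    · rw [e, one_apply_eq, mul_one]
    · have h1 := congrFun (congrFun hfix I) k
      rw [Matrix.add_apply, actT hX ha, one_apply_eq, one_apply_ne e, one_mul, mul_zero, add_zero,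
        ← add_assoc, two_F, zero_add] at h1
      rw [h1, one_apply_ne e, mul_zero]
      rfl
  have hn' := hB4 n hn
  have hb2 : n * b0 * n⁻¹ ∈ B := (mem_normalizer_iff.1 hn' b0).1 hb0
  set b2 := n * b0 * n⁻¹ with hb2d
  have hpat := (hB3 (π b2)).1 ⟨b2, hb2, rfl⟩
  have hY0 : ∀ h k, (π b2).1 h k = (1 : M5) h k +
      if k = J then ((π b2).1 h J + (1 : M5) h J) else 0 := by
    intro h k
    by_cases e : k = J
    · rw [if_pos e, e, add_comm ((π b2).1 h J), ← add_assoc, two_F, zero_add]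
    · rw [if_neg e, add_zero]
      exact hpat h k (Or.inl e)
  have hYg : (π b2).1 * (π n).1 = (π n).1 * (X i j).1 := by
    rw [← coe_mul', ← coe_mul', ← hπ0, ← map_mul, ← map_mul, hb2d, inv_mul_cancel_right]
  have hw : ∀ h, (π b2).1 h J + (1 : M5) h J = (π n).1 h I := by
    intro h
    have h1 := congrFun (congrFun hYg h) J
    rw [mulL hY0, hn J, one_apply_eq, mul_one] at h1
    have h2 : ((π n).1 * (X i j).1) h J = (π n).1 h J + (π n).1 h I := by
      simp [mul_apply, hX, mul_add, Finset.sum_add_distrib, one_apply]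
    rw [h2] at h1
    exact add_left_cancel h1
  have hY : ∀ h k, (π b2).1 h k = (1 : M5) h k + if k = J then (π n).1 h I else 0 := by
    intro h k
    rw [hY0, hw]
  have hgJI : (π n).1 J I = 0 := by rw [hn, hJI]
  have hga : ∀ k, ((π n).1 * a * (π n).1ᵀ) J k = a J I * (π n).1 k I := by
    intro k
    have h1 : ∀ l, ((π n).1 * a) J l = a J I * (1 : M5) l I := by
      intro l
      rw [← hrow]
      simp [mul_apply, hn, one_apply]
    rw [mul_apply]
    simp [h1, one_apply]
  have hnb : n * b * n⁻¹ = ι ((π n).1 * a * (π n).1ᵀ) * b2 := by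
    rw [← he.act n a ha, hb', hb2d]
    group
  refine ⟨?_, fun hc => ?_⟩
  · have hm : Alt ((π n).1 * a * (π n).1ᵀ + (π b2).1 * a * (π b2).1ᵀ) := (ha.act _).add (ha.act _)
    set m := (π n).1 * a * (π n).1ᵀ + (π b2).1 * a * (π b2).1ᵀ with hmd
    have e1 : n * b * n⁻¹ * b = ι m * (b2 * b0) := by
      rw [hnb, hmd, he.add _ _ (ha.act _) (ha.act _), ← he.act b2 a ha]
      conv_lhs => rw [hb']
      group
    have hT : ∀ h k, (π (b2 * b0)).1 h k = (1 : M5) h k +
        if k = J then ((π n).1 h I + (1 : M5) h I) else 0 := by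
      intro h k
      rw [map_mul, hπ0, coe_mul', mulL hY, hX, hX, hJI]
      by_cases e : k = J
      · subst e
        simp only [if_true, one_apply_eq]
        ring
      · simp only [if_neg e, one_apply_ne (Ne.symm e)]
        ring
    have hmJ : ∀ k, m J k = a J I * ((π n).1 k I + (1 : M5) k I) := by
      intro k
      rw [hmd, Matrix.add_apply, hga, actT hY ha, hgJI, ha.2 J, hrow k]
      ring
    rw [pow_two, e1, hsq m hm _ (B.mul_mem hb2 hb0), ← hι0]
    congr 1
    ext h k
    rw [Matrix.add_apply, actT hT hm, hmJ, hmJ]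
    have t1 := two_F (m h k)
    have t2 := two_F (a J I * ((π n).1 h I + (1 : M5) h I) * ((π n).1 k I + (1 : M5) k I))
    change _ = (0 : F)
    linear_combination t1 + t2
  · have hYX : π b2 = X i j := by
      rw [hb2d, map_mul, map_mul, map_inv, hπ0, hc, mul_inv_cancel_right]
    obtain ⟨a3, ha3, e3⟩ := (he.ker (b2 * b0⁻¹)).1
      (by rw [map_mul, map_inv, hYX, hπ0, mul_inv_cancel])
    have h3 := (hB2 a3 ha3).1 (e3 ▸ B.mul_mem hb2 (B.inv_mem hb0))
    have hg : ∀ k, (π n).1 k I = (1 : M5) k I := by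
      intro k
      have h1 := hY k J
      rw [hYX, hX, if_pos rfl, if_pos rfl] at h1
      exact (add_left_cancel h1).symm
    refine ⟨(π n).1 * a * (π n).1ᵀ + a3 + a, ((ha.act _).add ha3).add ha, fun k => ?_, ?_⟩
    · rw [Matrix.add_apply, Matrix.add_apply, hga, h3, hg, add_zero, ← hrow, two_F]
    · rw [he.add _ _ ((ha.act _).add ha3) ha, he.add _ _ (ha.act _) ha3, hnb, ← e3,
        ← inv_eq_of_mul_eq_one_right (hιι a ha)]
      conv_lhs => rw [hb']
      rw [inv_eq_of_mul_eq_one_right (hιι a ha), _root_.mul_inv_rev,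
        inv_eq_of_mul_eq_one_right (hιι a ha)]
      group

end Cfsg.Agent.H13.LpAp
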