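import Cfsg.Agent.H18.RfDefs
import Cfsg.Agent.H42.Sextet
import Cfsg.Agent.H42.Mathieu
import Cfsg.Agent.H42.Code

/-! Project RF, piece OZ: the cores of the centralizers of the two-central involutions of `V`. -/

set_option autoImplicit false

namespace Cfsg.Agent.H13.RfOz

open Cfsg Subgroup Cfsg.Agent.H18.Rf
open Cfsg.Agent.H48 (IsWord)
open scoped symmDiff Pointwise

universe u

theorem key {G : Type u} [Group G] [Finite G] {V : Subgroup G} {ρ : NN V →* M24} (hs : St V ρ)
    (ho : HO V) {z : G} (hz : z ∈ V) (h1 : z ≠ 1) (H : Subgroup M24) (hH : ¬ 2 ∣ H.index)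
    (hc : ∀ n : NN V, ρ n ∈ H → n * z * (n : G)⁻¹ = z) : pPrimeCore 2 ↥(C1 z) = ⊥ := by
  have : Fact (Nat.Prime 2) := ⟨Nat.prime_two⟩
  let s : NN V := ⟨z, le_normalizer hz⟩
  let K : Subgroup (NN V) := H.comap ρ
  have hK : K.index = H.index := index_comap_of_surjective H hs.sur
  have hsK : s ∈ K := by
    have : ρ s = 1 := (hs.ker s).2 hz
    change ρ s ∈ H
    rw [this]; exact H.one_mem
  have hs2 : orderOf s = 2 := by
    apply orderOf_eq_prime
    · apply Subtype.ext
      have := hs.el z hz
      simpa [pow_two] using this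
    · intro h
      exact h1 (congrArg Subtype.val h)
  let s' : K := ⟨s, hsK⟩
  have hs2' : orderOf s' = 2 := by rw [← hs2]; exact (Subgroup.orderOf_coe s').symm
  have hp : IsPGroup 2 (zpowers s') :=
    IsPGroup.of_card (n := 1) (by rw [Nat.card_zpowers, hs2', pow_one])
  obtain ⟨P, hP⟩ := hp.exists_le_sylow
  have hQ : IsPGroup 2 ((P : Subgroup K).map K.subtype) := P.isPGroup'.map _
  have hidx : ¬ 2 ∣ ((P : Subgroup K).map K.subtype).index := by
    rw [index_map_subtype, hK]
    intro h
    rcases (Nat.Prime.dvd_mul Nat.prime_two).1 h with h | h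
    · exact P.not_dvd_index h
    · exact hH h
  refine ho (hQ.toSylow hidx) s ?_ hs2 ?_
  · exact ⟨s', hP (mem_zpowers s'), rfl⟩
  · rintro y ⟨k, -, rfl⟩
    apply Subtype.ext
    have := hc k.1 k.2
    change ((k.1 : NN V) : G) * z = z * ((k.1 : NN V) : G)
    exact mul_inv_eq_iff_eq_mul.1 this

theorem odd_index {H : Subgroup M24} {n m : ℕ} (h : Nat.card H = n) (hn : n * m = 244823040)
    (hm : ¬ 2 ∣ m) : ¬ 2 ∣ H.index := by
  have h1 := H.card_mul_index
  rw [h, H42.card_M24, ← hn] at h1
  have h0 : 0 < n := by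
    rcases Nat.eq_zero_or_pos n with h0 | h0
    · rw [h0] at hn; omega
    · exact h0
  rw [Nat.eq_of_mul_eq_mul_left h0 h1]
  exact hm

theorem ozG : OzGStmt.{u} := by
  intro G _ _ V ρ ψ hs hg ho O hO
  have hw : IsWord O := hO.1
  have hc : O.card = 8 := hO.2
  refine key hs ho (hg.mem O hw) ?_ (MulAction.stabilizer M24 O)
    (odd_index (m := 759) (H42.card_stab_octad hO) (by norm_num) (by norm_num)) ?_
  · intro h
    rcases (hg.ker O hw).1 h with h | h
    · rw [h] at hc; simp at hc
    · rw [h, Finset.card_univ, H42.card_pt] at hc; omega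
  · intro n hn
    rw [hg.act n O hw, MulAction.mem_stabilizer_iff.1 hn]

theorem ozT : OzTStmt.{u} := by
  intro G _ _ V ρ ψ hs ht ho t h4
  have he : Even t.card := by rw [h4]; decide
  obtain ⟨S, hS, htS⟩ := H42.exists_sextet_mem h4
  refine key hs ho (ht.mem t he) ?_ (MulAction.stabilizer M24 S)
    (odd_index (m := 1771) (H42.card_stab_sextet hS) (by norm_num) (by norm_num)) ?_
  · intro h
    have hw := (ht.ker t he).1 h
    have := hw.eq_empty_of_card_lt (by omega)
    rw [this] at h4; simp at h4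
  · intro n hn
    rw [ht.act n t he]
    have hu : ρ n • t ∈ S := by
      have := Finset.smul_mem_smul_finset (a := ρ n) htS
      rwa [MulAction.mem_stabilizer_iff.1 hn] at this
    by_cases e : t = ρ n • t
    · rw [← e]
    · have hd := H42.sextet_disjoint hS htS hu e
      have hoc := hS.2.2 t htS _ hu e
      have hu4 := hS.2.1 _ hu
      have he' : Even (ρ n • t).card := by rw [hu4]; decide
      have hsd : t ∆ (ρ n • t) = t ∪ ρ n • t := hd.symmDiff_eq_sup
      have h8 : (t ∪ ρ n • t).card = 8 := hoc.2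
      have h1 : ψ (t ∆ (ρ n • t)) = 1 := by
        rw [hsd]
        exact (ht.ker _ (by rw [h8]; decide)).2 hoc.1
      rw [ht.add t _ he he'] at h1
      have h2 := hs.el _ (ht.mem t he)
      exact mul_left_cancel (h1.trans h2.symm)

end Cfsg.Agent.H13.RfOz
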