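import Cfsg.Agent.H35.RfQ

/-! Project RF, piece VDG: irreducible sections in the code case. -/

set_option autoImplicit false

namespace Cfsg.Agent.H13.RfVdG

open Cfsg Subgroup Cfsg.Agent.H18.Rf Cfsg.Agent.H35.RF

universe u

theorem vd_of {G : Type u} [Group G] {V : Subgroup G} {z : G} {W R : Subgroup G}
    (hb : Gb V z W R) : Vd V z W R where
  iW B hz hB hn := by
    by_cases h : B ≤ zpowers z
    · exact Or.inl (le_antisymm h (zpowers_le.2 hz))
    · right
      obtain ⟨w, hw, hwz⟩ := SetLike.not_le_iff_exists.1 h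
      refine le_antisymm hB fun w' hw' => ?_
      by_cases h' : w' ∈ zpowers z
      · exact zpowers_le.2 hz h'
      · obtain ⟨m, hm, e⟩ := hb.trW w (hB hw) hwz w' hw' h'
        rw [← e]
        exact (mem_normalizer_iff.1 (hn hm) w).1 hw
  iR U hV hU hn := by
    by_cases h : U ≤ V
    · exact Or.inl (le_antisymm h hV)
    · right
      obtain ⟨r, hr, hrV⟩ := SetLike.not_le_iff_exists.1 h
      refine le_antisymm hU fun r' hr' => ?_
      by_cases h' : r' ∈ V
      · exact hV h'
      · obtain ⟨m, hm, e⟩ := hb.trR r (hU hr) hrV r' hr' h'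
        have h1 := U.mul_mem (U.inv_mem (hV e)) ((mem_normalizer_iff.1 (hn hm) r).1 hr)
        have e2 : (m * r * m⁻¹ * r'⁻¹)⁻¹ * (m * r * m⁻¹) = r' := by group
        rwa [e2] at h1

theorem vdG (gb : GbStmt.{u}) : VdGStmt.{u} :=
  fun G _ _ V ρ ψ hs hg => vd_of (gb G V ρ ψ hs hg)

end Cfsg.Agent.H13.RfVdG
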