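import Cfsg.Agent.H18.RfSc

/-! Project RF, piece XSH: fixed points of an involutory automorphism on `Q/Z`. -/

set_option autoImplicit false

namespace Cfsg.Agent.H13.RfXsH

open Cfsg Subgroup Cfsg.Agent.H18.Rf
open Cfsg.Agent.H49 (XS)

universe u

variable {G : Type u} [Group G] {Q : Subgroup G} {z y : G}

theorem mem_NZ {g : G} (h : g * z = z * g) : g ∈ NN (zpowers z) := by
  have hc : ∀ x ∈ zpowers z, g * x = x * g := by
    rintro x ⟨n, rfl⟩
    exact ((show Commute g z from h).zpow_right n).eq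
  rw [mem_normalizer_iff]
  intro x
  constructor
  · intro hx
    rw [hc x hx, mul_inv_cancel_right]; exact hx
  · intro hx
    have h1 := hc _ hx
    have h2 : x = g * x * g⁻¹ := by
      have : g * x = g * (g * x * g⁻¹) := by rw [h1]; group
      exact mul_left_cancel this
    rw [h2]; exact hx

theorem mem_C (h : XS Q z) {c : G} :
    c ∈ Q ⊓ CM {y} (zpowers z) ↔ c ∈ Q ∧ c * y * c⁻¹ * y⁻¹ ∈ zpowers z := by
  rw [mem_inf, mem_CM]
  constructor
  · rintro ⟨h1, -, h2⟩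
    exact ⟨h1, h2 y rfl⟩
  · rintro ⟨h1, h2⟩
    refine ⟨h1, mem_NZ (h.cen c h1), ?_⟩
    rintro x rfl
    exact h2

theorem f_mem (hy : y ∈ NN Q) {t : G} (ht : t ∈ Q) : t * y * t⁻¹ * y⁻¹ ∈ Q := by
  have := Q.mul_mem ht ((mem_normalizer_iff.1 hy _).1 (Q.inv_mem ht))
  simpa [mul_assoc] using this

theorem f_C (h : XS Q z) (hy : y ∈ NN Q) (hyy : y * y ∈ Q) {t : G} (ht : t ∈ Q) :
    t * y * t⁻¹ * y⁻¹ ∈ Q ⊓ CM {y} (zpowers z) := by
  rw [mem_C h]
  refine ⟨f_mem hy ht, ?_⟩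
  have hf := f_mem hy ht
  have ht' : y * t⁻¹ * y⁻¹ ∈ Q := (mem_normalizer_iff.1 hy _).1 (Q.inv_mem ht)
  have e : t * y * t⁻¹ * y⁻¹ * y * (t * y * t⁻¹ * y⁻¹)⁻¹ * y⁻¹ =
      t * y * t⁻¹ * y⁻¹ * ((y * y) * t * (y * y)⁻¹) * (y * t⁻¹ * y⁻¹) := by group
  rw [e]
  rcases h.conj hyy ht with h1 | h1
  · rw [h1]
    have := h.sq_mem hf
    simpa [mul_assoc] using this
  · rw [h1]
    have h2 := (zpowers z).mul_mem (h.sq_mem hf) (mem_zpowers z)
    have e2 : t * y * t⁻¹ * y⁻¹ * (t * z) * (y * t⁻¹ * y⁻¹) =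
        t * y * t⁻¹ * y⁻¹ * (t * y * t⁻¹ * y⁻¹) * z := by
      have := h.cen _ ht'
      calc _ = t * y * t⁻¹ * y⁻¹ * t * (z * (y * t⁻¹ * y⁻¹)) := by group
        _ = t * y * t⁻¹ * y⁻¹ * t * ((y * t⁻¹ * y⁻¹) * z) := by rw [this]
        _ = _ := by group
    rw [e2]; exact h2

theorem f_CC (h : XS Q z) (hy : y ∈ NN Q) {t : G} (ht : t ∈ Q) :
    t * y * t⁻¹ * y⁻¹ ∈ CC (Q ⊓ CM {y} (zpowers z)) := by
  rw [mem_centralizer_iff]
  intro c hc
  obtain ⟨hcQ, hcz⟩ := (mem_C h).1 hc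
  have ht' : y * t⁻¹ * y⁻¹ ∈ Q := (mem_normalizer_iff.1 hy _).1 (Q.inv_mem ht)
  have key : (y * t⁻¹ * y⁻¹) * c = c * (y * t⁻¹ * y⁻¹) ↔ t * c = c * t := by
    have k1 : (y * t⁻¹ * y⁻¹) * (y * c⁻¹ * y⁻¹) = (y * c⁻¹ * y⁻¹) * (y * t⁻¹ * y⁻¹) ↔
        t * c = c * t := by
      constructor
      · intro e
        have e1 : t⁻¹ * c⁻¹ = c⁻¹ * t⁻¹ := by
          calc _ = y⁻¹ * ((y * t⁻¹ * y⁻¹) * (y * c⁻¹ * y⁻¹)) * y := by group
            _ = y⁻¹ * ((y * c⁻¹ * y⁻¹) * (y * t⁻¹ * y⁻¹)) * y := by rw [e]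
            _ = _ := by group
        have := congrArg (·⁻¹) e1
        simpa using this.symm
      · intro e
        calc _ = y * (c * t)⁻¹ * y⁻¹ := by group
          _ = y * (t * c)⁻¹ * y⁻¹ := by rw [e]
          _ = _ := by group
    rw [← k1]
    have k2 : ∀ a : G, a * c = c * a ↔ a * c⁻¹ = c⁻¹ * a := fun a =>
      ⟨fun e => (show Commute a c from e).inv_right.eq,
        fun e => by simpa using (show Commute a c⁻¹ from e).inv_right.eq⟩
    rw [k2]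
    rcases h.mem_Z.1 hcz with h1 | h1
    · have : y * c⁻¹ * y⁻¹ = c⁻¹ := by
        calc _ = c⁻¹ * (c * y * c⁻¹ * y⁻¹) := by group
          _ = _ := by rw [h1, mul_one]
      rw [this]
    · have : y * c⁻¹ * y⁻¹ = c⁻¹ * z := by
        calc _ = c⁻¹ * (c * y * c⁻¹ * y⁻¹) := by group
          _ = _ := by rw [h1]
      rw [this, mul_assoc c⁻¹ z, ← h.cen _ ht']
      generalize y * t⁻¹ * y⁻¹ = a
      rw [← mul_assoc, ← mul_assoc, mul_left_inj]
  have e : t * y * t⁻¹ * y⁻¹ = t * (y * t⁻¹ * y⁻¹) := by group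
  rw [e]
  by_cases h1 : t * c = c * t
  · exact ((show Commute t c from h1).mul_left (show Commute _ c from key.2 h1)).eq.symm
  · exact (h.mul_comm_of_ne_of_ne ht ht' hcQ h1 (fun h2 => h1 (key.1 h2))).symm

theorem count [Finite G] (h : XS Q z) (hy : y ∈ NN Q) (D : Subgroup G) (hz : z ∈ D) (hD : D ≤ Q)
    (hf : ∀ t ∈ Q, t * y * t⁻¹ * y⁻¹ ∈ D) :
    2 * Nat.card Q ≤ Nat.card D * Nat.card ↥(Q ⊓ CM {y} (zpowers z)) := by
  let N : Subgroup Q := (zpowers z).subgroupOf Q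
  have hN : N.Normal := by
    refine ⟨fun n hn g => ?_⟩
    rw [mem_subgroupOf] at hn ⊢
    have hg := mem_NZ (h.cen g g.2)
    exact (mem_normalizer_iff.1 hg _).1 hn
  have hcomm : ∀ a b : Q ⧸ N, a * b = b * a := by
    intro a b
    obtain ⟨a, rfl⟩ := QuotientGroup.mk_surjective a
    obtain ⟨b, rfl⟩ := QuotientGroup.mk_surjective b
    rw [← QuotientGroup.mk_mul, ← QuotientGroup.mk_mul, QuotientGroup.eq, mem_subgroupOf]
    have := h.commutator_mem (Q.inv_mem b.2) (Q.inv_mem a.2)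
    simpa [mul_assoc] using this
  let f : Q → Q := fun t => ⟨t * y * (t : G)⁻¹ * y⁻¹, f_mem hy t.2⟩
  let φ : Q →* Q ⧸ N := MonoidHom.mk' (fun t => (f t : Q ⧸ N)) (by
    intro a b
    have e : f (a * b) = a * f b * a⁻¹ * f a := by
      apply Subtype.ext
      simp only [f, coe_mul, coe_inv]
      group
    rw [e, QuotientGroup.mk_mul, QuotientGroup.mk_mul, QuotientGroup.mk_mul, QuotientGroup.mk_inv,
      hcomm (a : Q ⧸ N), mul_inv_cancel_right, hcomm])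
  have hker : φ.ker = (Q ⊓ CM {y} (zpowers z)).subgroupOf Q := by
    ext t
    rw [MonoidHom.mem_ker, mem_subgroupOf, mem_C h]
    change ((f t : Q) : Q ⧸ N) = 1 ↔ _
    rw [QuotientGroup.eq_one_iff, mem_subgroupOf]
    exact ⟨fun h1 => ⟨t.2, h1⟩, fun h1 => h1.2⟩
  have c1 : Nat.card φ.ker = Nat.card ↥(Q ⊓ CM {y} (zpowers z)) := by
    rw [hker]
    exact Nat.card_congr (subgroupOfEquivOfLe inf_le_left).toEquiv
  have c2 : Nat.card φ.ker * Nat.card φ.range = Nat.card Q := by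
    rw [← index_ker, card_mul_index]
  have c3 : Nat.card N = 2 := by
    rw [← h.card_Z]
    exact Nat.card_congr (subgroupOfEquivOfLe h.Z_le).toEquiv
  have c4 := QuotientGroup.card_preimage_mk N (φ.range : Set (Q ⧸ N))
  have c5 : Nat.card (QuotientGroup.mk ⁻¹' (φ.range : Set (Q ⧸ N)) : Set Q) ≤
      Nat.card (D.subgroupOf Q) := by
    apply Nat.card_mono (Set.toFinite _)
    rintro r ⟨t, ht⟩
    have h1 : ((f t : Q) : Q ⧸ N) = (r : Q ⧸ N) := ht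
    rw [QuotientGroup.eq, mem_subgroupOf] at h1
    have h2 := D.mul_mem (hf t t.2) ((zpowers_le.2 hz) h1)
    have e : (t : G) * y * (t : G)⁻¹ * y⁻¹ * (((f t)⁻¹ * r : Q) : G) = r := by
      simp only [f, coe_mul, coe_inv]
      group
    rw [e] at h2
    exact h2
  have c6 : Nat.card (D.subgroupOf Q) = Nat.card D :=
    Nat.card_congr (subgroupOfEquivOfLe hD).toEquiv
  rw [c4, c3, c6] at c5
  rw [← c2, c1, mul_comm (Nat.card ↥(Q ⊓ CM {y} (zpowers z))), ← mul_assoc]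
  exact Nat.mul_le_mul_right _ c5

theorem xsH : XsHStmt.{u} := by
  intro G _ _ Q z y h hy hyz hyy
  have hzC : z ∈ Q ⊓ CM {y} (zpowers z) := by
    rw [mem_C h]
    refine ⟨h.mem, ?_⟩
    have : z * y = y * z := mem_centralizer_singleton_iff.1 hyz |>.symm
    rw [this]
    simp
  have hzCC : z ∈ CC (Q ⊓ CM {y} (zpowers z)) := by
    rw [mem_centralizer_iff]
    intro c hc
    exact h.cen c hc.1
  have h2 : ∀ t ∈ Q, t * y * t⁻¹ * y⁻¹ ∈
      Q ⊓ CM {y} (zpowers z) ⊓ CC (Q ⊓ CM {y} (zpowers z)) :=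
    fun t ht => ⟨f_C h hy hyy ht, f_CC h hy ht⟩
  have hc := count h hy _ (mem_inf.2 ⟨hzC, hzCC⟩) (inf_le_left.trans inf_le_left) h2
  have hle : Nat.card ↥(Q ⊓ CM {y} (zpowers z) ⊓ CC (Q ⊓ CM {y} (zpowers z))) ≤
      Nat.card ↥(Q ⊓ CM {y} (zpowers z)) := card_le_of_le inf_le_left
  refine ⟨hc.trans ?_, h2, fun he => ?_⟩
  · rw [pow_two]
    exact Nat.mul_le_mul_right _ hle
  · rw [he, pow_two] at hc
    have h3 := Nat.le_of_mul_le_mul_right hc Nat.card_pos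
    have h4 := eq_of_le_of_card_ge inf_le_left h3
    exact inf_eq_left.1 h4

end Cfsg.Agent.H13.RfXsH
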