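import Cfsg.Agent.Lead.T3Defs

/-! The cosine form of a finite Coxeter system is positive definite. -/

set_option autoImplicit false

namespace Cfsg.Agent.H13.T3Pos

open Cfsg.Agent.H35 Cfsg.Agent.Lead.T3 Module Polynomial.Chebyshev Real

theorem rot {M : Type*} [AddCommGroup M] [Module ℝ M] {f g : Dual ℝ M} {x y : M} (hf : f x = 2)
    (hg : g y = 2) {m : ℕ} (hm : 2 ≤ m) (h1 : f y = -2 * cos (π / m)) (h2 : g x = -2 * cos (π / m)) :
    (reflection hf * reflection hg) ^ m = 1 := by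
  ext z
  have m0 : (0 : ℝ) < m := by exact_mod_cast (show 0 < m by omega)
  have ht : 2 * cos (2 * (π / m)) = f y * g x - 2 := by rw [h1, h2, cos_two_mul]; ring
  rw [reflection_mul_reflection_pow_apply hf hg m z _ ht]
  rcases hm.eq_or_lt with rfl | hm
  · have e : cos (π / (2 : ℕ)) = 0 := by simp
    rw [e, mul_zero] at h1 h2
    rw [ht, h1, h2]
    norm_num
    abel
  have m2 : (2 : ℝ) < m := by exact_mod_cast hm
  have hs : sin (2 * (π / m)) ≠ 0 := (sin_pos_of_pos_of_lt_pi (by positivity) (by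
    rw [← mul_div_assoc, div_lt_iff₀ m0]; nlinarith [pi_pos])).ne'
  obtain ⟨k, rfl | rfl⟩ := Nat.even_or_odd' m
  · have e : (S ℝ (k - 1)).eval (2 * cos (2 * (π / (2 * k : ℕ)))) = 0 := by
      refine (mul_eq_zero.1 ?_).resolve_right hs
      have k0 : (k : ℝ) ≠ 0 := by exact_mod_cast (show k ≠ 0 by omega)
      rw [S_two_mul_real_cos, show _ * _ = π by push_cast; field_simp; ring, sin_pi]
    rw [show (((2 * k : ℕ) : ℤ) - 2) / 2 = k - 1 by omega,
      show (((2 * k : ℕ) : ℤ) - 1) / 2 = k - 1 by omega, e]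
    simp
  · have e : (S ℝ k).eval (2 * cos (2 * (π / (2 * k + 1 : ℕ)))) +
        (S ℝ (k - 1)).eval (2 * cos (2 * (π / (2 * k + 1 : ℕ)))) = 0 := by
      refine (mul_eq_zero.1 ?_).resolve_right hs
      rw [add_mul, S_two_mul_real_cos, S_two_mul_real_cos,
        show (((k : ℤ) : ℝ) + 1) * (2 * (π / (2 * k + 1 : ℕ))) =
          2 * π - ((((k : ℤ) - 1 : ℤ) : ℝ) + 1) * (2 * (π / (2 * k + 1 : ℕ))) by
            push_cast at m0 ⊢; field_simp; ring, sin_two_pi_sub, neg_add_cancel]
    rw [show (((2 * k + 1 : ℕ) : ℤ) - 2) / 2 = k - 1 by omega,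
      show (((2 * k + 1 : ℕ) : ℤ) - 1) / 2 = k by omega,
      show (((2 * k + 1 : ℕ) : ℤ) - 3) / 2 = k - 1 by omega,
      show ((2 * k + 1 : ℕ) : ℤ) / 2 = k by omega, e]
    simp

theorem pos {I W : Type} [Group W] [Finite W] [Fintype I] (X : Cox I W) (x : I → ℝ) (hx : x ≠ 0) :
    0 < ∑ i, ∑ j, x i * x j * (-cos (π / X.m i j)) := by
  classical
  have := Fintype.ofFinite W
  have sy : ∀ i j, X.m i j = X.m j i := fun i j => by
    rw [Cox.m, Cox.m, ← orderOf_inv]; simp
  let f : I → Dual ℝ (I → ℝ) := fun i => ∑ k, (-2 * cos (π / X.m k i)) • LinearMap.proj k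
  have fa : ∀ i j, f i (Pi.single j 1) = -2 * cos (π / X.m j i) := fun i j => by
    simp [f, Pi.single_apply]
  have hf : ∀ i, f i (Pi.single i 1) = 2 := fun i => by simp [fa, Cox.m, X.s_mul_s]
  obtain ⟨cs, hcs⟩ := X.exch.exists_coxeterSystem (X.orderMatrix X.inj) fun _ _ => rfl
  have hl : (X.orderMatrix X.inj).IsLiftable fun i => reflection (hf i) := fun i j => by
    change _ ^ X.m i j = 1
    by_cases e : i = j
    · subst e
      rw [show X.m i i = 1 by simp [Cox.m, X.s_mul_s], pow_one, mul_eq_one_iff_eq_inv, reflection_inv]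
    · have h0 : X.m i j ≠ 0 := (orderOf_pos _).ne'
      have h1 : X.m i j ≠ 1 := (X.orderMatrix X.inj).off_diagonal i j e
      exact rot _ _ (by omega) (by rw [fa, sy]) (fa j i)
  let ρ := cs.lift ⟨_, hl⟩
  have hρ : ∀ i, ρ (X.s i) = reflection (hf i) := fun i => hcs i ▸ cs.lift_apply_simple hl i
  let Q : LinearMap.BilinForm ℝ (I → ℝ) :=
    ∑ g : W, (dotProductBilin ℝ ℝ).compl₁₂ (ρ g).toLinearMap (ρ g).toLinearMap
  have hQ : ∀ v w, Q v w = ∑ g : W, ρ g v ⬝ᵥ ρ g w := fun v w => by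
    simp [Q, LinearMap.sum_apply]
  have qp : ∀ v, v ≠ 0 → 0 < Q v v := fun v hv => by
    rw [hQ]
    exact Finset.sum_pos (fun g _ => lt_of_le_of_ne (Finset.sum_nonneg fun _ _ => mul_self_nonneg _)
      fun e => hv ((ρ g).map_eq_zero_iff.1 (dotProduct_self_eq_zero.1 e.symm))) Finset.univ_nonempty
  have qs : ∀ v w, Q v w = Q w v := fun v w => by simp only [hQ, dotProduct_comm]
  have qa : ∀ i j, Q (Pi.single j 1) (Pi.single i 1) =
      -cos (π / X.m j i) * Q (Pi.single i 1) (Pi.single i 1) := fun i j => by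
    have e : Q (reflection (hf i) (Pi.single j 1)) (reflection (hf i) (Pi.single i 1)) =
        Q (Pi.single j 1) (Pi.single i 1) := by
      rw [hQ, hQ, ← hρ]
      exact Fintype.sum_equiv (Equiv.mulRight (X.s i)) _ _ fun g => by simp
    rw [reflection_apply_self, reflection_apply, fa, map_neg, map_sub, map_smul, LinearMap.sub_apply,
      LinearMap.smul_apply, smul_eq_mul] at e
    linarith
  have cp : ∀ i, 0 < √(Q (Pi.single i 1) (Pi.single i 1)) := fun i =>
    sqrt_pos.2 (qp _ (by simp))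
  have key : ∀ i j, Q (Pi.single i 1) (Pi.single j 1) = -cos (π / X.m i j) *
      (√(Q (Pi.single i 1) (Pi.single i 1)) * √(Q (Pi.single j 1) (Pi.single j 1))) := fun i j => by
    by_cases e : -cos (π / X.m i j) = 0
    · rw [qa, e, zero_mul, zero_mul]
    · have := (qa j i).symm.trans ((qs _ _).trans (qa i j))
      rw [sy j i, mul_right_inj' e] at this
      rw [qa, this, mul_self_sqrt (qp _ (by simp)).le]
  have h := qp (∑ i, (x i / √(Q (Pi.single i 1) (Pi.single i 1))) • Pi.single i 1) fun e => hx (by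
    ext i
    simpa [Pi.single_apply, (cp i).ne'] using congrFun e i)
  simp only [map_sum, map_smul, LinearMap.sum_apply, LinearMap.smul_apply, smul_eq_mul] at h
  rw [Finset.sum_comm]
  refine h.trans_eq (Finset.sum_congr rfl fun j _ => ?_)
  rw [Finset.mul_sum]
  refine Finset.sum_congr rfl fun i _ => ?_
  have h1 := cp i
  have h2 := cp j
  rw [key i j]
  field_simp

end Cfsg.Agent.H13.T3Pos
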