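import Cfsg.Agent.H25.UGDefs
import Cfsg.Agent.H50.UwWeil
import Cfsg.Agent.H53.UwKit
import Cfsg.Agent.H15.UwTw
import Cfsg.Agent.H47.UwGauss

/-! Project UG: the data extracted from the Weil representation. -/

set_option autoImplicit false
set_option linter.unusedSectionVars false

namespace Cfsg.Agent.H13.UgWr

open Module Cfsg.Agent.H31 Cfsg.Agent.H53.Uw Cfsg.Agent.H50.UwWeil Cfsg.Agent.H77.Sg
open scoped ComplexConjugate

universe u

section
variable {E V : Type u} [Field E] [Fintype E] [AddCommGroup V] [Module E V] [Fintype V]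
  [DecidableEq V] {σ : E →+* E} {B : V →ₛₗ[σ] V →ₗ[E] E} {q : ℕ} {ψ : AddChar E ℂ}

theorem rep_ex (hs : St B q) (hk : Sk σ ψ) {M : Type} [AddCommGroup M]
    [Module ℂ M] [FiniteDimensional ℂ M] {e : V → Module.End ℂ M} (h0 : e 0 = 1)
    (he : ∀ u v, e u * e v = ψ (B u v) • e (u + v))
    (ht : ∀ v, v ≠ 0 → LinearMap.trace ℂ M (e v) = 0)
    (hc : ∀ T : Module.End ℂ M, (∀ v, T * e v = e v * T) → ∃ c : ℂ, T = c • 1)
    (hd : (finrank ℂ M : ℂ) = (q : ℂ) ^ finrank E V) :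
    ∃ ρ : isom B → Module.End ℂ M,
      (∀ g, ρ g = ((-(q : ℂ)) ^ (finrank E V + finrank E (fx g.1)))⁻¹ • S B ψ e g) ∧
      ∀ g h, LinearMap.trace ℂ M (ρ g * ρ h) = om B q (g * h) := by
  have gauss : GaussStmt.{u} := H47.UwGauss.gauss
  have hq := two_le hs
  have hq0 : (q : ℂ) ≠ 0 := by simp; omega
  have hd0 : (q : ℂ) ^ finrank E V ≠ 0 := pow_ne_zero _ hq0
  obtain ⟨a, haa⟩ : ∃ a : isom B → ℂ, ∀ g, a g = (-(q : ℂ)) ^ (finrank E V + finrank E (fx g.1)) :=
    ⟨_, fun _ => rfl⟩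
  have ha : ∀ g, a g ≠ 0 := fun g => haa g ▸ pow_ne_zero _ (neg_ne_zero.2 hq0)
  have hai : ∀ g, a g⁻¹ = a g := fun g => by rw [haa, haa, fx_inv]
  obtain ⟨ρ, hρρ⟩ : ∃ ρ : isom B → Module.End ℂ M, ∀ g, ρ g = (a g)⁻¹ • S B ψ e g :=
    ⟨_, fun _ => rfl⟩
  have hρ : ∀ g w, ρ g * e w = e (g.1 w) * ρ g := fun g w => by
    rw [hρρ, smul_mul_assoc, mul_smul_comm, S_e he]
  have hs1 : ((-1 : ℂ) ^ finrank E V) * (-1) ^ finrank E V = 1 := by rw [← mul_pow]; simp
  have htr : ∀ g, LinearMap.trace ℂ _ (ρ g) = om B q g := fun g => by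
    rw [hρρ, map_smul, tr_S hs h0 ht, hd, om, smul_eq_mul, inv_mul_eq_iff_eq_mul₀ (ha g), haa,
      pow_add, neg_pow (q : ℂ) (finrank E V), pow_mul, ← neg_sq, ← pow_mul, two_mul, pow_add]
    linear_combination (-(q : ℂ) ^ finrank E V * (-(q : ℂ)) ^ finrank E (fx g.1) *
      (-(q : ℂ)) ^ finrank E (fx g.1)) * hs1
  have hom : ∀ g, om B q g ≠ 0 := fun g =>
    mul_ne_zero (pow_ne_zero _ (by simp)) (pow_ne_zero _ (neg_ne_zero.2 hq0))
  have htr2 : ∀ g h, LinearMap.trace ℂ _ (ρ g * ρ h) =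
      (a g * a h)⁻¹ * ((q : ℂ) ^ finrank E V * FF B ψ g h) := fun g h => by
    rw [hρρ, hρρ, smul_mul_smul_comm, map_smul, tr_SS h0 he ht, hd, smul_eq_mul, mul_inv]
  have hinv : ∀ g, ρ g * ρ g⁻¹ = 1 := fun g => by
    obtain ⟨c, h1⟩ := hc (ρ g * ρ g⁻¹) fun w => by
      rw [mul_assoc, hρ, ← mul_assoc, hρ, mul_assoc]
      exact congrArg (fun x => e x * _) (apply_inv_apply g.1 w)
    have h2 := htr2 g g⁻¹
    rw [h1, map_smul, LinearMap.trace_one, hd, FF_inv hs, hai, smul_eq_mul, pow_mul, ← neg_sq,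
      ← pow_mul, two_mul, pow_add, ← haa, mul_left_comm,
      inv_mul_cancel₀ (mul_ne_zero (ha g) (ha g)), mul_comm] at h2
    rw [h1, mul_left_cancel₀ hd0 h2, one_smul]
  have hβ : ∀ g h, ∃ β : ℂ, ρ g * ρ h = β • ρ (g * h) := fun g h => by
    obtain ⟨c, h1⟩ := hc (ρ (g * h)⁻¹ * (ρ g * ρ h)) fun w => by
      rw [mul_assoc, mul_assoc, hρ, ← mul_assoc (ρ g), hρ, ← mul_assoc, ← mul_assoc, hρ]
      simp only [mul_assoc]
      exact congrArg (fun x => e x * _) (inv_apply_apply (g * h).1 w)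
    exact ⟨c, by rw [← one_mul (ρ g * ρ h), ← hinv (g * h), mul_assoc, h1, mul_smul_comm, mul_one]⟩
  have hmul : ∀ g h, ρ (g * h) = ρ g * ρ h := fun g h => by
    obtain ⟨β, h1⟩ := hβ g h
    obtain ⟨β', h2⟩ := hβ h⁻¹ g⁻¹
    obtain ⟨m, hm⟩ := FF_pow (ψ := ψ) gauss hs hk g h
    have h3 := htr2 g h
    have h4 := htr2 h⁻¹ g⁻¹
    rw [h1, map_smul, htr, hm, smul_eq_mul] at h3
    rw [h2, map_smul, htr, FF_swap hs, hm, map_pow, map_neg, map_natCast, hai, hai, mul_comm (a h),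
      ← h3, ← mul_inv_rev, om, fx_inv, smul_eq_mul] at h4
    have h5 : β' = β := mul_right_cancel₀ (hom _) h4
    have h6 : ρ g * ρ h * (ρ h⁻¹ * ρ g⁻¹) = 1 := by
      rw [mul_assoc, ← mul_assoc (ρ h), hinv, one_mul, hinv]
    rw [h1, h2, ← mul_inv_rev, smul_mul_smul_comm, hinv, h5] at h6
    have h7 := congrArg (LinearMap.trace ℂ M) h6
    rw [map_smul, LinearMap.trace_one, hd, smul_eq_mul, mul_eq_right₀ hd0] at h7
    rw [h1, eq_one_of_sq hq (i := finrank E (fx (g * h).1) + (finrank E V + finrank E (fx g.1)) +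
      (finrank E V + finrank E (fx h.1))) (j := finrank E V + m) ?_ h7, one_smul]
    rw [eq_inv_mul_iff_mul_eq₀ (mul_ne_zero (ha g) (ha h)), om] at h3
    rw [pow_add, pow_add, ← haa, ← haa, pow_add, neg_pow (q : ℂ) (finrank E V)]
    linear_combination (-1) ^ finrank E V * h3 -
      β * (-(q : ℂ)) ^ finrank E (fx (g * h).1) * a g * a h * hs1
  exact ⟨ρ, fun g => by rw [hρρ, haa], fun g h => by rw [← hmul, htr]⟩

theorem fx_conj (g k : V ≃ₗ[E] V) : finrank E (fx (k * g * k⁻¹)) = finrank E (fx g) := by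
  have e : fx (k * g * k⁻¹) = (fx g).map (k : V →ₗ[E] V) := by
    ext v
    rw [Submodule.mem_map_equiv, mem_fx, mem_fx]
    change k (g (k⁻¹ v)) = v ↔ g (k⁻¹ v) = k⁻¹ v
    rw [← k.injective.eq_iff (a := g (k⁻¹ v)), apply_inv_apply]
  rw [e, LinearEquiv.finrank_map_eq]

variable (B ψ q) in
/-- The coefficients of the operator of `g`. -/
noncomputable def aa (g : V ≃ₗ[E] V) (u : V) : ℂ :=
  ((-(q : ℂ)) ^ (finrank E V + finrank E (fx g)))⁻¹ *
    ∑ v : V, if g v - v = u then ψ (-B u v) else 0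

theorem aa_conj (g : V ≃ₗ[E] V) {k : V ≃ₗ[E] V} (hk : k ∈ isom B) (u : V) :
    aa B q ψ (k * g * k⁻¹) (k u) = aa B q ψ g u := by
  rw [aa, aa, fx_conj, ← k.toEquiv.sum_comp]
  congr 1
  refine Finset.sum_congr rfl fun v _ => ?_
  change (if k (g (k⁻¹ (k v))) - k v = k u then ψ (-B (k u) (k v)) else 0) = _
  rw [inv_apply_apply, mem_isom.1 hk, ← map_sub]
  simp only [k.injective.eq_iff]

theorem S_eq {M : Type} [AddCommGroup M] [Module ℂ M] (e : V → Module.End ℂ M) (g : isom B) :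
    ((-(q : ℂ)) ^ (finrank E V + finrank E (fx g.1)))⁻¹ • S B ψ e g =
      ∑ u : V, aa B q ψ g.1 u • e u := by
  simp only [aa, mul_smul, ← Finset.smul_sum, Finset.sum_smul]
  congr 1
  rw [S, Finset.sum_comm]
  refine Finset.sum_congr rfl fun v _ => ?_
  rw [Finset.sum_eq_single (g.1 v - v)]
  · rw [if_pos rfl]
  · intro u _ hu
    rw [if_neg (Ne.symm hu), zero_smul]
  · intro h
    exact absurd (Finset.mem_univ _) h

end

open Cfsg.Agent.H25.UG in
theorem wr : WrStmt.{u} := by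
  intro E K _ _ _ _ _ σ B q R t kt
  classical
  have := Fintype.ofFinite K
  have hs := kt.st
  obtain ⟨ψ, hk⟩ := (kit E K σ B q hs).1
  obtain ⟨e, h0, he, ht, hc⟩ := H15.UwTw.tw E K σ B q hs ψ hk
  have hd : (finrank ℂ (Fin (q ^ finrank E K) → ℂ) : ℂ) = (q : ℂ) ^ finrank E K := by simp
  obtain ⟨ρ, h1, h2⟩ := rep_ex hs hk h0 he ht hc hd
  have hq0 : (q : ℂ) ≠ 0 := by have := kt.q2; simp; omega
  refine ⟨ψ⁻¹, aa B q ψ, fun g u => if h : g ∈ isom B then
    LinearMap.trace ℂ _ (ρ ⟨g, h⟩ * e u) else 0, ?_, fun g _ k hk u => aa_conj g hk u,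
    fun g hg g' hg' => ?_, fun s hs' s1 u => ?_⟩
  · obtain ⟨a, ha, ha'⟩ := hk
    exact ⟨-a, by rw [map_neg, ← neg_add, ha, neg_zero], by rwa [AddChar.inv_apply, neg_neg]⟩
  · have e1 : wo q (g' * g) = om B q (⟨g', hg'⟩ * ⟨g, hg⟩) := by
      rw [wo, om, kt.rk]
      norm_num
      rfl
    rw [e1, ← h2, h1 ⟨g, hg⟩, S_eq, Finset.mul_sum, map_sum, finsum_eq_sum_of_fintype]
    refine Finset.sum_congr rfl fun u _ => ?_
    rw [dif_pos hg', mul_smul_comm, map_smul, smul_eq_mul]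
  · have hi := (kt.iso s).2 hs'
    have s2 : (s : K) - 1 ≠ 0 := sub_ne_zero.2 fun c => s1 (Units.ext c)
    have f0 : fx (mulH E K s) = ⊥ := by
      refine eq_bot_iff.2 fun v hv => ?_
      rw [mem_fx, mulH_apply] at hv
      have : ((s : K) - 1) * v = 0 := by rw [sub_mul, hv, one_mul, sub_self]
      exact (mul_eq_zero.1 this).resolve_left s2
    rw [dif_pos hi, h1, smul_mul_assoc, map_smul, S, Finset.sum_mul, map_sum,
      Finset.sum_eq_single (-u / ((s : K) - 1))]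
    · have e1 : mulH E K s (-u / ((s : K) - 1)) - -u / ((s : K) - 1) = -u := by
        rw [mulH_apply]
        field_simp
        ring
      dsimp only
      rw [e1, smul_mul_assoc, he, smul_smul, neg_add_cancel, h0, map_smul, LinearMap.trace_one, hd,
        f0, finrank_bot, add_zero, kt.rk, ← AddChar.map_add_eq_mul, AddChar.inv_apply]
      have e2 : -B (-u) (-u / ((s : K) - 1)) + B (-u) u =
          -Algebra.trace E K (u ^ (q ^ 7 + 1) * kap s) := by
        rw [neg_left, neg_left, neg_neg, ← sub_eq_add_neg, ← map_sub, kt.form, ← map_neg]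
        congr 1
        rw [kap]
        field_simp
        ring
      rw [e2, smul_eq_mul, smul_eq_mul]
      field_simp
    · intro w _ hw
      dsimp only
      rw [smul_mul_assoc, he, smul_smul, map_smul, ht, smul_zero]
      intro c
      apply hw
      rw [mulH_apply] at c
      rw [eq_div_iff s2]
      linear_combination c
    · intro h
      exact absurd (Finset.mem_univ _) h

theorem eqns_UgWr : True := by
  have := @aa.eq_1.{0}
  trivial

end Cfsg.Agent.H13.UgWr
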