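import Cfsg.Agent.H74.UVDefs

/-!
Project UV, piece HOM: a normalising element with a large determinant produces a homology.
-/

set_option autoImplicit false

namespace Cfsg.Agent.H13.UvHom

open Cfsg Module Cfsg.Agent.H31 Cfsg.Agent.H74.UV
open Cfsg.Agent.H53.Uw (St fx mem_fx)

universe u

theorem ex_b (M : ℕ) : ∀ N : ℕ, 0 < N → ∃ e b : ℕ, b.Coprime M ∧ N ∣ M ^ e * b := by
  intro N
  induction N using Nat.strong_induction_on with
  | _ N ih =>
    intro hN
    by_cases h : N.Coprime M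
    · exact ⟨0, N, h, by simp⟩
    · have hg : 1 < Nat.gcd N M := by
        have h0 : 0 < Nat.gcd N M := Nat.gcd_pos_of_pos_left _ hN
        have h1 : Nat.gcd N M ≠ 1 := h
        omega
      obtain ⟨N', hN'⟩ := Nat.gcd_dvd_left N M
      have hpos : 0 < N' := by
        rcases Nat.eq_zero_or_pos N' with h0 | h0
        · rw [h0, mul_zero] at hN'; omega
        · exact h0
      have hlt : N' < N := by
        have : 1 * N' < Nat.gcd N M * N' := Nat.mul_lt_mul_of_pos_right hg hpos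
        omega
      obtain ⟨e, b, hb, hd⟩ := ih N' hlt hpos
      refine ⟨e + 1, b, hb, ?_⟩
      have h2 : Nat.gcd N M * N' ∣ M * (M ^ e * b) := mul_dvd_mul (Nat.gcd_dvd_right N M) hd
      rw [← hN'] at h2
      have h3 : M ^ (e + 1) * b = M * (M ^ e * b) := by ring
      rw [h3]
      exact h2

theorem step {Γ : Type*} [Group Γ] (M : ℕ) (g : Γ) (hg : g ≠ 1) :
    ∀ e : ℕ, g ^ (M ^ e) = 1 → ∃ j : ℕ, g ^ j ≠ 1 ∧ (g ^ j) ^ M = 1 := by
  intro e
  induction e with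
  | zero => intro h; simp at h; exact absurd h hg
  | succ e ih =>
    intro h
    by_cases h' : g ^ (M ^ e) = 1
    · exact ih h'
    · exact ⟨M ^ e, h', by rw [← pow_mul, ← pow_succ, h]⟩

theorem conj_pow_mem {Γ : Type*} [Group Γ] {x n : Γ} (h : n * x * n⁻¹ ∈ Subgroup.zpowers x) :
    ∀ k : ℕ, n ^ k * x * (n ^ k)⁻¹ ∈ Subgroup.zpowers x := by
  intro k
  induction k with
  | zero => simp
  | succ k ih =>
    obtain ⟨m, hm⟩ := Subgroup.mem_zpowers_iff.mp ih
    have e : n ^ (k + 1) * x * (n ^ (k + 1))⁻¹ = (n * x * n⁻¹) ^ m := by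
      rw [conj_zpow, hm, pow_succ']
      group
    rw [e]
    exact Subgroup.zpow_mem _ h m

theorem pow_fix {E V : Type*} [Field E] [AddCommGroup V] [Module E V] {n : V ≃ₗ[E] V} {w : V}
    (h : n w = w) : ∀ k : ℕ, (n ^ k) w = w := by
  intro k
  induction k with
  | zero => rfl
  | succ k ih => rw [pow_succ, LinearEquiv.mul_apply, h, ih]

theorem hom (g1 : Gl1Stmt.{u}) (ha : HomaStmt.{u}) (fr : FrobStmt.{u}) : HomStmt.{u} := by
  intro E V _ _ _ _ _ σ B q l G hst hrk hl hl5 hdvd hG hZ x hx hox n hn hnx hnf hdet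
  have : FiniteDimensional E V := Module.Finite.of_finite
  have : Finite (V ≃ₗ[E] V) :=
    Finite.of_injective (fun g : V ≃ₗ[E] V => (g : V → V)) DFunLike.coe_injective
  have hH := hst.herm
  have hd : LinearEquiv.det n ^ (q + 1) = 1 := by
    apply Units.ext
    have h := hH.det_norm (hG hn)
    rw [hst.pow] at h
    rw [Units.val_pow_eq_pow_val, LinearEquiv.coe_det, pow_succ', h, Units.val_one]
  obtain ⟨e, b, hb, hNb⟩ := ex_b (q + 1) (orderOf n) (orderOf_pos n)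
  have hdet' : LinearEquiv.det (n ^ b) ^ 2 ≠ 1 := by
    intro h
    apply hdet
    rw [map_pow, ← pow_mul, mul_comm, pow_mul] at h
    have h2 : (LinearEquiv.det n ^ 2) ^ (q + 1) = 1 := by
      rw [← pow_mul, mul_comm, pow_mul, hd, one_pow]
    have h3 := pow_gcd_eq_one.mpr ⟨h, h2⟩
    rwa [hb.gcd_eq_one, pow_one] at h3
  have hex : ∃ i : ℕ, Commute ((n ^ b) ^ i) x ∧ (n ^ b) ^ i ≠ 1 := by
    by_contra hc
    push Not at hc
    exact hdet' (fr E V σ B q l hst hrk hl hl5 hdvd x (hG hx) hox (n ^ b) (hG (G.pow_mem hn b))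
      (conj_pow_mem hnx b) (fun w hw => pow_fix (hnf w hw) b) hc)
  obtain ⟨i, hci, hi1⟩ := hex
  have hpe : ((n ^ b) ^ i) ^ ((q + 1) ^ e) = 1 := by
    have h1 : n ^ ((q + 1) ^ e * b) = 1 := orderOf_dvd_iff_pow_eq_one.mp hNb
    rw [← pow_mul, ← pow_mul]
    have : b * (i * (q + 1) ^ e) = ((q + 1) ^ e * b) * i := by ring
    rw [this, pow_mul, h1, one_pow]
  obtain ⟨j, hj1, hjq⟩ := step (q + 1) _ hi1 e hpe
  set g := ((n ^ b) ^ i) ^ j with hgdef
  have hgG : g ∈ G := G.pow_mem (G.pow_mem (G.pow_mem hn b) i) j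
  have hgx : Commute g x := hci.pow_left j
  have hgf : ∀ w ∈ fx x, g w = w := fun w hw => pow_fix (pow_fix (pow_fix (hnf w hw) b) i) j
  obtain ⟨a, haa, hga⟩ := ha E V σ B q l (q + 1) hst hrk hl hl5 hdvd dvd_rfl x (hG hx) hox g
    (hG hgG) hjq hgx
  obtain ⟨U₁, U₂, hf1, -, -, -, -, htop, hperp, -⟩ :=
    g1 E V σ B q l hst hrk hl hl5 hdvd x (hG hx) hox
  have hdec : ∀ y : V, ∃ w ∈ fx x, ∃ u ∈ U₁ ⊔ U₂, w + u = y := by
    intro y
    have hy : y ∈ fx x ⊔ (U₁ ⊔ U₂) := by rw [← sup_assoc, htop]; trivial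
    exact Submodule.mem_sup.mp hy
  have ha1 : a ≠ 1 := by
    intro h1
    apply hj1
    ext y
    obtain ⟨w, hw, u, hu, rfl⟩ := hdec y
    rw [map_add, hgf w hw, hga u fun w' hw' => hperp w' hw' u hu, h1, one_smul]
    rfl
  obtain ⟨w0, hw0, hspan⟩ := finrank_eq_one_iff'.mp hf1
  have hsp : ∀ w ∈ fx x, ∃ c : E, c • (w0 : V) = w := by
    intro w hw
    obtain ⟨c, hc⟩ := hspan ⟨w, hw⟩
    exact ⟨c, congrArg Subtype.val hc⟩
  have hw0' : (w0 : V) ≠ 0 := fun h => hw0 (Subtype.ext h)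
  have hB0 : B w0 w0 ≠ 0 := by
    intro h0
    apply hw0'
    apply hH.nondeg
    intro y
    obtain ⟨w, hw, u, hu, rfl⟩ := hdec y
    obtain ⟨c, rfl⟩ := hsp w hw
    rw [map_add, smul_right, h0, hperp _ w0.2 u hu, mul_zero, add_zero]
  obtain ⟨z, hzG, hz⟩ := hZ (σ a) (by rw [hH.inv.invol, mul_comm, haa])
  refine ⟨w0, hB0, z * g, G.mul_mem hzG hgG, ?_, ?_⟩
  · intro h1
    have h2 : (z * g) (w0 : V) = w0 := by rw [h1]; rfl
    rw [LinearEquiv.mul_apply, hgf _ w0.2, hz] at h2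
    have h3 : (σ a - 1) • (w0 : V) = 0 := by rw [sub_smul, h2, one_smul, sub_self]
    rcases smul_eq_zero.mp h3 with h4 | h4
    · apply ha1
      rw [sub_eq_zero] at h4
      rw [h4, mul_one] at haa
      exact haa
    · exact hw0' h4
  · intro u hu
    have hu' : ∀ w ∈ fx x, B w u = 0 := by
      intro w hw
      obtain ⟨c, rfl⟩ := hsp w hw
      rw [smul_left, hu, mul_zero]
    rw [LinearEquiv.mul_apply, hga u hu', hz, smul_smul, mul_comm, haa, one_smul]

end Cfsg.Agent.H13.UvHom
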